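import Cfsg.Agent.O8Three88.Greedy

/-! The identities behind the data, evaluated by the kernel. -/

set_option autoImplicit false

namespace CfsgLib.O8Three88

open Matrix

/-- Transposition of tables. -/
def trL (A : List (List ℕ)) : List (List ℕ) := tab2 fun i j => ent A j i

/-- The table of the form. -/
def jL : List (List ℕ) := tab2 fun i j => if (i + 4) % 8 = j then 1 else 0

/-- Table of a matrix of small size, padded by zeros. -/
def padM {n : ℕ} (M : Matrix (Fin n) (Fin n) F3) : List (List ℕ) :=
  tab2 fun i j => if hi : i < n then if hj : j < n then (M ⟨i, hi⟩ ⟨j, hj⟩).val else 0 else 0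

/-- The parameters of a type. -/
def par8 (i : ℕ) : ℕ × ℕ × ℕ × ℕ × ℕ := typePar.getD i (0, 0, 0, 8, 0)

/-- The blocks of a type. -/
def blksOf (i : ℕ) : List Blk :=
  blks (par8 i).1 (par8 i).2.1 (par8 i).2.2.1 (par8 i).2.2.2.1 (par8 i).2.2.2.2

/-- A member of a list of data. -/
abbrev dat {α : Type} [Inhabited α] (l : List α) (i : ℕ) : α := l.getD i default

/-- Conjugate of a standard element by a coset representative. -/
def cosConj (i j : ℕ) : List (List ℕ) := dat cosetElt j ++ dat typeElt i ++ (dat cosetElt j).reverse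

/-- The conditions on a type. -/
def typeOK (i : ℕ) : Bool :=
  goodL (dat typeElt i) && (mulL (prodL (dat typeElt i)) (dat baseData i) == mulL (dat baseData i) (padM (actM (blksOf i)))) &&
    (mulL (trL (dat baseData i)) (mulL jL (dat baseData i)) == padM (gramM (blksOf i))) &&
    (mulL (dat baseInvData i) (dat baseData i) == oneL)

/-- The conditions on a coset. -/
def cosetOK (j : ℕ) : Bool :=
  goodL (dat cosetElt j) && (prodL (dat cosetElt j ++ (dat cosetElt j).reverse) == oneL)

/-- The conditions on a class. -/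
def classOK (q : ℕ) : Bool :=
  omegaL (dat classElt q) && (prodL (dat classElt q) != oneL) &&
    (prodL (dat classElt q ++ dat classElt q ++ dat classElt q) == oneL)

/-- The conditions on an entry of the table. -/
def tableOK (i j : ℕ) : Bool :=
  decide (dat (dat tableClass i) j < 13) && omegaL (dat (dat tableWit i) j) &&
    (prodL (dat (dat tableWit i) j ++ dat classElt (dat (dat tableClass i) j)) ==
      prodL (cosConj i j ++ dat (dat tableWit i) j))

/-- The table of the conjugation of octonions. -/
def kL : List (List ℕ) :=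
  [[0,0,0,0,1,0,0,0],[0,2,0,0,0,0,0,0],[0,0,2,0,0,0,0,0],[0,0,0,2,0,0,0,0],
   [1,0,0,0,0,0,0,0],[0,0,0,0,0,2,0,0],[0,0,0,0,0,0,2,0],[0,0,0,0,0,0,0,2]]

/-- The conditions on the graph automorphism at a class. -/
def gamOK (q : ℕ) : Bool :=
  decide (dat gamPerm q < 13) && omegaL (dat gamWit q) &&
    (prodL (dat gamWit q ++ dat classElt (dat gamPerm q)) ==
      mulL (mulL (mulL kL (prodL (dat classElt q))) kL) (prodL (dat gamWit q)))

/-- Product of a table and a vector. -/
def mvL (A : List (List ℕ)) (v : List ℕ) : List ℕ :=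
  tab fun i => (ent A i 0 * v.getD 0 0 + ent A i 1 * v.getD 1 0 + ent A i 2 * v.getD 2 0 + ent A i 3 * v.getD 3 0 +
    ent A i 4 * v.getD 4 0 + ent A i 5 * v.getD 5 0 + ent A i 6 * v.getD 6 0 + ent A i 7 * v.getD 7 0) % 3

/-- A column of a table. -/
def colL (A : List (List ℕ)) (a : ℕ) : List ℕ := tab fun i => ent A i a

/-- A basis vector. -/
def unitL (a : ℕ) : List ℕ := tab fun i => if i = a then 1 else 0

/-- The octonion product on lists. -/
def omulL (a b : List ℕ) : List ℕ :=
  let A := fun i => a.getD i 0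
  let B := fun i => b.getD i 0
  [(A 0 * B 0 + 2 * (A 1 * B 5 + A 2 * B 6 + A 3 * B 7)) % 3,
   (A 0 * B 1 + B 4 * A 1 + 2 * (A 6 * B 7 + 2 * (A 7 * B 6))) % 3,
   (A 0 * B 2 + B 4 * A 2 + 2 * (A 7 * B 5 + 2 * (A 5 * B 7))) % 3,
   (A 0 * B 3 + B 4 * A 3 + 2 * (A 5 * B 6 + 2 * (A 6 * B 5))) % 3,
   (A 4 * B 4 + 2 * (A 5 * B 1 + A 6 * B 2 + A 7 * B 3)) % 3,
   (B 0 * A 5 + A 4 * B 5 + 2 * (A 2 * B 3 + 2 * (A 3 * B 2))) % 3,
   (B 0 * A 6 + A 4 * B 6 + 2 * (A 3 * B 1 + 2 * (A 1 * B 3))) % 3,
   (B 0 * A 7 + A 4 * B 7 + 2 * (A 1 * B 2 + 2 * (A 2 * B 1))) % 3]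

/-- A triple maps the products of basis vectors correctly. -/
def tripOK (X A C : List (List ℕ)) : Bool :=
  (List.range 8).all fun a => (List.range 8).all fun b =>
    mvL X (omulL (unitL a) (unitL b)) == omulL (colL A a) (colL C b)

/-- The conditions on triality at a class. -/
def tauOK (q : ℕ) : Bool :=
  decide (dat tauPerm q < 13) && omegaL (dat tauWit q) && omegaL (dat tauSnd q) && goodL (dat tauThd q) &&
    (prodL (dat tauWit q ++ dat classElt (dat tauPerm q)) == prodL (dat tauSnd q ++ dat tauWit q)) &&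
    tripOK (prodL (dat classElt q)) (prodL (dat tauSnd q)) (prodL (dat tauThd q))

set_option maxHeartbeats 4000000 in
theorem typeOK_all : (List.range 8).all typeOK = true := by decide +kernel

theorem cosetOK_all : (List.range 4).all cosetOK = true := by decide +kernel

theorem classOK_all : (List.range 13).all classOK = true := by decide +kernel

theorem tableOK_all : ((List.range 8).all fun i => (List.range 4).all fun j => tableOK i j) = true := by
  decide +kernel

theorem gamOK_all : (List.range 13).all gamOK = true := by decide +kernel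

theorem tauOK_all : (List.range 13).all tauOK = true := by decide +kernel

theorem parity_fix : ∀ p : Bool, ∀ c : F3, c ≠ 0 → ∃ j < 4,
    ((dat cosetElt j).length % 2 == 0) = p ∧ ((normL (dat cosetElt j) : ℕ) : F3) = c := by
  decide +kernel

end CfsgLib.O8Three88
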