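import Cfsg.Agent.O8Three88.Invariants
import Cfsg.Agent.AutOrth.PlusOutFour

/-! The thirteen classes of subgroups of order three of `PΩ⁺₈(3)` and the action of triality and of the graph
automorphism on them. -/

set_option autoImplicit false
set_option linter.unusedSectionVars false

namespace CfsgLib.O8Three88

open Cfsg Cfsg.Geo CfsgLib.OrthGeo CfsgLib.Classical.Orth CfsgLib.AutOrth CfsgLib.AutOrth.Plus
open CfsgLib.AutOrth.Triality CfsgLib.AutOrth.Octonion Matrix

/-- The simple group. -/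
abbrev P8 := POmega F3 Q8

/-- The similarities. -/
abbrev S38 := ↥(quadSimilarityGroup Q8)

lemma five8 : 5 ≤ Fintype.card I8 := by simp [Fintype.card_sum]

/-- The representative in `Ω`. -/
noncomputable def xom (q : Fin 13) : Omega F3 Q8 := ⟨xq q, xq_mem q.2⟩

/-- The representative in the simple group. -/
noncomputable def yP (q : Fin 13) : P8 := QuotientGroup.mk (xom q)

/-- The type of a class. -/
def clType (q : Fin 13) : ℕ := dat classType q

/-- The graph automorphism on the classes. -/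
def piG : Fin 13 → Fin 13 := ![0, 2, 1, 4, 3, 5, 6, 7, 8, 10, 9, 11, 12]

/-- Triality on the classes. -/
def piT : Fin 13 → Fin 13 := ![0, 1, 5, 8, 4, 2, 10, 7, 3, 9, 6, 11, 12]

lemma piG_eq : ∀ q : Fin 13, dat gamPerm q = piG q := by decide +kernel

lemma piT_eq : ∀ q : Fin 13, dat tauPerm q = piT q := by decide +kernel

lemma class_table : ∀ q : Fin 13, dat classType q < 8 ∧ dat classCoset q < 4 ∧
    dat (dat tableClass (dat classType q)) (dat classCoset q) = q := by decide +kernel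

lemma xq_hasType (q : Fin 13) : HasType (xq q) (clType q) := by
  obtain ⟨hi, hj, he⟩ := class_table q
  obtain ⟨-, h, -, e⟩ := table_spec hi hj
  rw [he] at e
  have : xq q = h⁻¹ * (isoOf (dat cosetElt (dat classCoset q)) * stdEl (dat classType q) *
      (isoOf (dat cosetElt (dat classCoset q)))⁻¹) * h := by rw [e]; group
  refine ⟨hi, h⁻¹ * isoOf (dat cosetElt (dat classCoset q)), ?_⟩
  rw [this]; simp only [clType]; group

lemma sq_center {z : Omega F3 Q8} (hz : z ∈ Subgroup.center (Omega F3 Q8)) : z * z = 1 := by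
  obtain ⟨c, hc⟩ := scalar_of_mem_center hQ8 five8 hz
  let e : V8 := Pi.single (.inl 0) 1 + Pi.single (.inr 0) 1
  have he : Q8 e = 1 := by decide +kernel
  have hcc : c * c = 1 := by
    have h := (mem_isometryGroup.1 (z : Iso).2) e
    rw [hc, hQ8.smul, he, mul_one] at h
    rw [← pow_two]; exact h
  refine Subtype.ext (Subtype.ext (gl_ext fun v => ?_))
  simp only [Subgroup.coe_mul, Units.val_mul, ← mulVec_mulVec, OneMemClass.coe_one, Units.val_one, one_mulVec]
  rw [hc, hc, smul_smul, hcc, one_smul]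

/-- Lifts of order dividing three are unique. -/
lemma lift_unique {a b : Omega F3 Q8} (h : (QuotientGroup.mk a : P8) = QuotientGroup.mk b) (ha : a ^ 3 = 1)
    (hb : b ^ 3 = 1) : a = b := by
  have hz := QuotientGroup.eq.1 h
  set z := a⁻¹ * b with hzdef
  have hb' : b = a * z := by rw [hzdef, mul_inv_cancel_left]
  have hz3 : z ^ 3 = 1 := by
    have h3 : (a * z) ^ 3 = a ^ 3 * z ^ 3 := (Commute.mul_pow (Subgroup.mem_center_iff.1 hz a) 3)
    rw [← hb', hb, ha, one_mul] at h3
    exact h3.symm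
  rw [pow_succ, pow_two, sq_center hz, one_mul] at hz3
  rw [hb', hz3, mul_one]

lemma xom_pow (q : Fin 13) : xom q ^ 3 = 1 := Subtype.ext (by rw [SubmonoidClass.coe_pow]; exact xq_pow q.2)

lemma xom_ne (q : Fin 13) : xom q ≠ 1 := fun h => xq_ne q.2 (congrArg Subtype.val h)

lemma yP_pow (q : Fin 13) : yP q ^ 3 = 1 := by rw [yP, ← QuotientGroup.mk_pow, xom_pow]; rfl

lemma yP_ne (q : Fin 13) : yP q ≠ 1 := fun h =>
  xom_ne q (lift_unique (a := xom q) (b := 1) h (xom_pow q) (one_pow 3))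

/-- The element is conjugate to a representative of the class. -/
def InClass (y : P8) (q : Fin 13) : Prop := ∃ g : P8, y = g * yP q * g⁻¹

theorem exists_inClass (y : P8) (h3 : y ^ 3 = 1) (hne : y ≠ 1) : ∃ q, InClass y q := by
  obtain ⟨k, rfl⟩ := QuotientGroup.mk_surjective y
  have hz : k ^ 3 ∈ Subgroup.center (Omega F3 Q8) := by
    rw [← QuotientGroup.eq_one_iff, QuotientGroup.mk_pow]; exact h3
  have hy : (QuotientGroup.mk k : P8) = QuotientGroup.mk (k ^ 4) := by
    rw [QuotientGroup.mk_pow, pow_succ, h3, one_mul]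
  have hk : (k ^ 4) ^ 3 = 1 := by
    rw [← pow_mul, show 4 * 3 = 3 * 2 * 2 from rfl, pow_mul, pow_mul, pow_two (k ^ 3), sq_center hz, one_pow]
  have hk1 : k ^ 4 ≠ 1 := fun h => hne (by rw [hy, h, QuotientGroup.mk_one])
  obtain ⟨q, hq, h, hh, he⟩ := exists_class ((k ^ 4 : Omega F3 Q8) : Iso) (k ^ 4).2
    (by rw [← SubmonoidClass.coe_pow, hk]; rfl) (fun e => hk1 (Subtype.ext e))
  refine ⟨⟨q, hq⟩, QuotientGroup.mk ⟨h, hh⟩, ?_⟩
  rw [hy, yP, ← QuotientGroup.mk_inv, ← QuotientGroup.mk_mul, ← QuotientGroup.mk_mul]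
  exact congrArg _ (Subtype.ext he)

/-- The subgroups of two representatives are conjugate. -/
def Rel (q p : Fin 13) : Prop := ∃ g : P8, g * yP q * g⁻¹ = yP p ∨ g * yP q * g⁻¹ = (yP p)⁻¹

lemma Rel.type {q p : Fin 13} (h : Rel q p) : clType q = clType p := by
  obtain ⟨g, hg⟩ := h
  obtain ⟨k, rfl⟩ := QuotientGroup.mk_surjective g
  have h3 : (k * xom q * k⁻¹) ^ 3 = 1 := by rw [conj_pow, xom_pow]; group
  have ht : HasType ((k * xom q * k⁻¹ : Omega F3 Q8) : Iso) (clType q) := (xq_hasType q).conj (k : Iso)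
  rcases hg with hg | hg
  · have e : k * xom q * k⁻¹ = xom p := lift_unique hg h3 (xom_pow p)
    rw [e] at ht
    exact ht.unique (xq_hasType p)
  · have e : k * xom q * k⁻¹ = (xom p)⁻¹ := lift_unique hg h3 (by rw [inv_pow, xom_pow, inv_one])
    rw [e] at ht
    exact ht.unique ((xq_hasType p).inv (xq_pow p.2) (xq_ne p.2))

lemma Rel.map {β : MulAut P8} {π : Fin 13 → Fin 13} (hβ : ∀ q, InClass (β (yP q)) (π q)) {q p : Fin 13}
    (h : Rel q p) : Rel (π q) (π p) := by
  obtain ⟨g, hg⟩ := h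
  obtain ⟨a, ha⟩ := hβ q
  obtain ⟨b, hb⟩ := hβ p
  refine ⟨b⁻¹ * β g * a, ?_⟩
  have e : b⁻¹ * β g * a * yP (π q) * (b⁻¹ * β g * a)⁻¹ = b⁻¹ * β (g * yP q * g⁻¹) * b := by
    rw [map_mul, map_mul, map_inv, ha]; group
  rcases hg with hg | hg
  · left; rw [e, hg, hb]; group
  · right; rw [e, hg, map_inv, hb]; group

/-- The matrix of a similarity. -/
abbrev sx (g : S38) : M8 := ((g : GL I8 F3) : M8)

lemma sx_injective : Function.Injective sx := fun _ _ h => Subtype.ext (Units.ext h)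

lemma sx_omegaToS (k : Omega F3 Q8) : sx (omegaToS Q8 k) = mx (k : Iso) := rfl

lemma sx_toS (g : Iso) : sx (toS g) = mx g := rfl

lemma kL_eq : ∀ i j : I8, oconj (Pi.single j (1 : F3)) i = toMat kL i j := by
  intro i j
  rcases i with i | i <;> rcases j with j | j <;> fin_cases i <;> fin_cases j <;> rfl

lemma sx_kS : sx (kS : S38) = toMat kL := by
  ext i j
  have h := congrFun (act_kS (F := F3) (Pi.single j 1)) i
  rw [kL_eq] at h
  rw [← h]
  simp [act]

lemma gam_spec (q : Fin 13) : InClass (gam (yP q)) (piG q) := by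
  have h := of_range_all gamOK_all q.2
  simp only [gamOK, Bool.and_eq_true, decide_eq_true_eq, beq_iff_eq] at h
  obtain ⟨⟨-, hw⟩, he⟩ := h
  rw [piG_eq] at he
  have hgx : ∀ p : Fin 13, goodL (dat classElt p) = true := fun p => by
    have h' := of_range_all classOK_all p.2
    simp only [classOK, Bool.and_eq_true] at h'
    exact goodL_of_omegaL h'.1.1
  refine ⟨QuotientGroup.mk ⟨isoOf (dat gamWit q), isoOf_mem hw⟩, CfsgLib.AutOrth.Triality.conj_injective ?_⟩
  rw [yP, yP, ← QuotientGroup.mk_inv, ← QuotientGroup.mk_mul, ← QuotientGroup.mk_mul, ← conjS_omega, aut_conj,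
    ← conjS_omega, gam, ← map_inv, ← map_mul, ← map_mul]
  refine congrArg _ ?_
  rw [inv_eq_of_mul_eq_one_right (kS_mul_self (F := F3))]
  set w : Omega F3 Q8 := ⟨isoOf (dat gamWit q), isoOf_mem hw⟩ with hwdef
  suffices hs : omegaToS Q8 (w * xom (piG q)) = kS * omegaToS Q8 (xom q) * kS * omegaToS Q8 w by
    rw [map_mul, map_inv, eq_mul_inv_iff_mul_eq]
    exact hs.symm
  refine sx_injective ?_
  have hgw := goodL_of_omegaL hw
  have e := congrArg toMat he
  rw [toMat_prodL_append, toMat_mulL, toMat_mulL, toMat_mulL, ← mx_isoOf hgw, ← mx_isoOf (hgx _),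
    ← mx_isoOf (hgx _), ← sx_kS] at e
  exact e

lemma toVec_omulL (a b : List ℕ) : toVec (omulL a b) = omul (toVec a) (toVec b) := by
  funext i
  have h2 : (2 : F3) = -1 := rfl
  rcases i with i | i <;> fin_cases i <;>
    simp [toVec, omulL, omul, ix, ZMod.natCast_mod, h2, List.getD] <;> ring

lemma toVec_mvL (A : List (List ℕ)) (v : List ℕ) : toVec (mvL A v) = toMat A *ᵥ toVec v := by
  funext i
  rw [Matrix.mulVec, dotProduct, sum_I8]
  simp only [toVec, toMat, mvL]
  rw [tab_getD]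
  simp only [ent, ZMod.natCast_mod, Nat.cast_add, Nat.cast_mul]
  rfl

lemma toVec_unitL (a : I8) : toVec (unitL (ix a)) = Pi.single a 1 := by
  funext i
  simp only [toVec, unitL]
  rw [tab_getD]
  rcases eq_or_ne i a with rfl | hne
  · simp
  · rw [if_neg (fun e => hne (ix_injective e)), Pi.single_eq_of_ne hne, Nat.cast_zero]

lemma toVec_colL (A : List (List ℕ)) (a : I8) : toVec (colL A (ix a)) = toMat A *ᵥ Pi.single a 1 := by
  funext i
  rw [Matrix.mulVec_single_one]
  simp only [toVec, colL]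
  rw [tab_getD]
  rfl

/-- The product as a bilinear map. -/
def omulLin : V8 →ₗ[F3] V8 →ₗ[F3] V8 :=
  LinearMap.mk₂ F3 omul (fun a b c => add_omul a b c) (fun t a b => smul_omul t a b) omul_add omul_smul

lemma trip_of_tripOK {X A C : List (List ℕ)} (h : tripOK X A C = true) (x y : V8) :
    toMat X *ᵥ omul x y = omul (toMat A *ᵥ x) (toMat C *ᵥ y) := by
  have key : omulLin.compr₂ (toMat X).mulVecLin = omulLin.compl₁₂ (toMat A).mulVecLin (toMat C).mulVecLin := by
    refine LinearMap.ext_basis (Pi.basisFun F3 I8) (Pi.basisFun F3 I8) fun a b => ?_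
    simp only [Pi.basisFun_apply, LinearMap.compr₂_apply, LinearMap.compl₁₂_apply, Matrix.mulVecLin_apply]
    show toMat X *ᵥ omul _ _ = omul _ _
    have hlt : ∀ i : I8, ix i < 8 := by decide
    have h' := of_range_all (of_range_all h (hlt a)) (hlt b)
    rw [beq_iff_eq] at h'
    have e := congrArg toVec h'
    rw [toVec_mvL, toVec_omulL, toVec_omulL, toVec_unitL, toVec_unitL, toVec_colL, toVec_colL] at e
    exact e
  exact LinearMap.congr_fun₂ key x y

lemma tau_class (q : Fin 13) : InClass (tau (yP q)) (piT q) := by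
  have h := of_range_all tauOK_all q.2
  simp only [tauOK, Bool.and_eq_true, decide_eq_true_eq, beq_iff_eq] at h
  obtain ⟨⟨⟨⟨⟨-, hw⟩, hA⟩, hC⟩, he⟩, ht⟩ := h
  rw [piT_eq] at he
  have hgx : ∀ p : Fin 13, goodL (dat classElt p) = true := fun p => by
    have h' := of_range_all classOK_all p.2
    simp only [classOK, Bool.and_eq_true] at h'
    exact goodL_of_omegaL h'.1.1
  set w : Omega F3 Q8 := ⟨isoOf (dat tauWit q), isoOf_mem hw⟩ with hwdef
  set A : Omega F3 Q8 := ⟨isoOf (dat tauSnd q), isoOf_mem hA⟩ with hAdef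
  have hmem : ((omegaToS Q8 (xom q), omegaToS Q8 A, toS (isoOf (dat tauThd q))) : S38 × S38 × S38) ∈ trip := by
    intro x y
    show mx (xq q) *ᵥ _ = omul (mx (isoOf (dat tauSnd q)) *ᵥ x) (mx (isoOf (dat tauThd q)) *ᵥ y)
    rw [mx_isoOf (hgx q), mx_isoOf (goodL_of_omegaL hA), mx_isoOf hC]
    exact trip_of_tripOK ht x y
  refine ⟨QuotientGroup.mk w, CfsgLib.AutOrth.Triality.conj_injective ?_⟩
  rw [yP, tau_spec hmem (xom q) rfl, yP, ← QuotientGroup.mk_inv, ← QuotientGroup.mk_mul, ← QuotientGroup.mk_mul,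
    ← conjS_omega]
  refine congrArg (fun k : Omega F3 Q8 => conjS Q8 (omegaToS Q8 k)) ?_
  rw [eq_mul_inv_iff_mul_eq]
  refine Subtype.ext (mx_injective ?_)
  have hgw := goodL_of_omegaL hw
  have e := congrArg toMat he
  rw [toMat_prodL_append, toMat_prodL_append, ← mx_isoOf hgw, ← mx_isoOf (hgx _),
    ← mx_isoOf (goodL_of_omegaL hA)] at e
  exact e.symm

/-- The three types attached to a class. -/
def sigT (q : Fin 13) : ℕ × ℕ × ℕ := (clType q, clType (piT q), clType (piT (piG q)))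

lemma sigT_injective : Function.Injective sigT := by decide +kernel

theorem Rel.eq {q p : Fin 13} (h : Rel q p) : q = p :=
  sigT_injective (Prod.ext h.type (Prod.ext (h.map tau_class).type ((h.map gam_spec).map tau_class).type))

/-- The subgroup of a class. -/
noncomputable def Ysub (q : Fin 13) : Subgroup P8 := Subgroup.zpowers (yP q)

lemma card_Ysub (q : Fin 13) : Nat.card (Ysub q) = 3 := by
  rw [Ysub, Nat.card_zpowers]
  exact orderOf_eq_prime (hp := ⟨Nat.prime_three⟩) (yP_pow q) (yP_ne q)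

lemma mem_Ysub {q : Fin 13} {z : P8} (h : z ∈ Ysub q) : z = 1 ∨ z = yP q ∨ z = (yP q)⁻¹ := by
  obtain ⟨n, rfl⟩ := Subgroup.mem_zpowers_iff.1 h
  have h3 : orderOf (yP q) = 3 := orderOf_eq_prime (hp := ⟨Nat.prime_three⟩) (yP_pow q) (yP_ne q)
  rw [← zpow_mod_orderOf, h3]
  rcases (show n % (3 : ℕ) = 0 ∨ n % (3 : ℕ) = 1 ∨ n % (3 : ℕ) = 2 by omega) with e | e | e <;> rw [e]
  · exact Or.inl (zpow_zero _)
  · exact Or.inr (Or.inl (zpow_one _))
  · refine Or.inr (Or.inr (eq_inv_of_mul_eq_one_left ?_))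
    rw [show (2 : ℤ) = ((2 : ℕ) : ℤ) from rfl, zpow_natCast, ← pow_succ, yP_pow]

theorem Ysub_inj {q p : Fin 13} {g : P8} (h : (Ysub q).map (MulAut.conj g).toMonoidHom = Ysub p) : q = p := by
  have hm : g * yP q * g⁻¹ ∈ Ysub p := h ▸ Subgroup.mem_map_of_mem _ (Subgroup.mem_zpowers _)
  rcases mem_Ysub hm with e | e | e
  · exact absurd (conj_eq_one_iff.1 e) (yP_ne q)
  · exact Rel.eq ⟨g, Or.inl e⟩
  · exact Rel.eq ⟨g, Or.inr e⟩

theorem exists_Ysub (X : Subgroup P8) (hX : Nat.card X = 3) :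
    ∃ q, ∃ g : P8, X.map (MulAut.conj g).toMonoidHom = Ysub q := by
  have : Fact (Nat.Prime 3) := ⟨Nat.prime_three⟩
  have : Finite X := Nat.finite_of_card_ne_zero (by omega)
  have : Nontrivial X := Finite.one_lt_card_iff_nontrivial.1 (by omega)
  obtain ⟨⟨y, hy⟩, hne⟩ := exists_ne (1 : X)
  have h3 : y ^ 3 = 1 := by
    have := pow_card_eq_one' (G := X) (x := ⟨y, hy⟩)
    rw [hX] at this
    exact congrArg Subtype.val this
  obtain ⟨q, g, hg⟩ := exists_inClass y h3 (fun e => hne (Subtype.ext e))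
  refine ⟨q, g⁻¹, ?_⟩
  have hz : X = Subgroup.zpowers y := by
    have := zpowers_eq_top_of_prime_card hX hne
    rw [← (Subgroup.zpowers y).map_id] 
    conv_lhs => rw [← X.range_subtype, MonoidHom.range_eq_map, ← this, MonoidHom.map_zpowers]
    simp
  rw [hz, MonoidHom.map_zpowers, Ysub]
  congr 1
  rw [hg]
  simp only [MulEquiv.coe_toMonoidHom, MulAut.conj_apply]
  group

end CfsgLib.O8Three88
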