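import Cfsg.Agent.O8Three88.Check

/-! Elements of order three of the isometry group are conjugate to one of eight standard ones, and inside `Ω`
to one of thirteen. -/

set_option autoImplicit false
set_option linter.unusedSectionVars false

namespace CfsgLib.O8Three88

open Cfsg Cfsg.Geo CfsgLib.OrthGeo CfsgLib.Classical.Orth Matrix

/-- The isometry group. -/
abbrev Iso := ↥(isometryGroup F3 Q8)

/-- The matrix of an isometry. -/
abbrev mx (g : Iso) : M8 := ((g : GL I8 F3) : M8)

lemma mx_injective : Function.Injective mx := fun _ _ h => Subtype.ext (Units.ext h)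

lemma mx_mul (g h : Iso) : mx (g * h) = mx g * mx h := rfl

lemma mx_one : mx 1 = 1 := rfl

open _root_.Classical in
/-- The isometry of a list of reflection vectors. -/
noncomputable def isoOf (vs : List (List ℕ)) : Iso :=
  if h : goodL vs = true then Classical.choose (exists_isometry h) else 1

lemma mx_isoOf {vs : List (List ℕ)} (h : goodL vs = true) : mx (isoOf vs) = toMat (prodL vs) := by
  rw [isoOf, dif_pos h]; exact Classical.choose_spec (exists_isometry h)

lemma goodL_append (a b : List (List ℕ)) : goodL (a ++ b) = (goodL a && goodL b) := List.all_append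

lemma goodL_reverse (a : List (List ℕ)) : goodL a.reverse = goodL a := List.all_reverse

lemma toMat_prodL_append (a b : List (List ℕ)) : toMat (prodL (a ++ b)) = toMat (prodL a) * toMat (prodL b) := by
  rw [toMat_prodL, toMat_prodL, toMat_prodL, List.map_append, List.map_append, List.prod_append]

lemma isoOf_append {a b : List (List ℕ)} (ha : goodL a = true) (hb : goodL b = true) :
    isoOf (a ++ b) = isoOf a * isoOf b := by
  refine mx_injective ?_
  rw [mx_mul, mx_isoOf (by rw [goodL_append, ha, hb]; rfl), mx_isoOf ha, mx_isoOf hb, toMat_prodL_append]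

lemma isoOf_congr {a b : List (List ℕ)} (ha : goodL a = true) (hb : goodL b = true)
    (h : (prodL a == prodL b) = true) : isoOf a = isoOf b :=
  mx_injective (by rw [mx_isoOf ha, mx_isoOf hb, eq_of_beq h])

lemma goodL_of_omegaL {a : List (List ℕ)} (h : omegaL a = true) : goodL a = true := by
  simp only [omegaL, Bool.and_eq_true] at h
  exact h.1.1

lemma isoOf_mem {a : List (List ℕ)} (h : omegaL a = true) : isoOf a ∈ Omega F3 Q8 := by
  obtain ⟨k, hk⟩ := exists_omega h
  rw [show isoOf a = (k : Iso) from mx_injective ((mx_isoOf (goodL_of_omegaL h)).trans hk.symm)]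
  exact k.2

lemma of_range_all {n : ℕ} {p : ℕ → Bool} (h : (List.range n).all p = true) {i : ℕ} (hi : i < n) : p i = true :=
  List.all_eq_true.1 h i (List.mem_range.2 hi)

lemma ord3_of_pow {g : Iso} (h : g ^ 3 = 1) : Ord3 (mx g) := by
  refine ⟨?_, ?_⟩
  · rw [← mx_mul, ← mx_mul, ← pow_two, ← pow_succ, h, mx_one]
  · ext i j
    rw [gram_apply]
    have := gram_of_mem_isometry g.2 (Pi.single i 1) (Pi.single j 1)
    rw [Matrix.mulVec_single_one, Matrix.mulVec_single_one] at this
    refine this.trans ?_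
    rw [B8_eq, Matrix.mulVec_single_one]
    simp

/-- Casting a square matrix of size eight to the index type. -/
def idx {n : ℕ} (h : n = 8) : I8 ≃ Fin n := finSumFinEquiv.trans (finCongr h.symm)

lemma idx_val {n : ℕ} (h : n = 8) (i : I8) : (idx h i : ℕ) = ix i := by
  rcases i with i | i <;> fin_cases i <;> rfl

lemma toMat_padM {n : ℕ} (h : n = 8) (M : Matrix (Fin n) (Fin n) F3) :
    toMat (padM M) = M.submatrix (idx h) (idx h) := by
  ext i j
  have hi : ix i < n := idx_val h i ▸ (idx h i).2
  have hj : ix j < n := idx_val h j ▸ (idx h j).2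
  simp only [toMat, padM]
  rw [tab2_getD, dif_pos hi, dif_pos hj, ZMod.natCast_zmod_val, Matrix.submatrix_apply]
  congr 1 <;> exact Fin.ext (idx_val h _).symm

lemma toMat_trL (A : List (List ℕ)) : toMat (trL A) = (toMat A)ᵀ := by
  ext i j
  simp only [toMat, trL]
  rw [tab2_getD]
  rfl

lemma toMat_jL : toMat jL = J8 := by decide +kernel

lemma det_J8 : J8.det = 1 := by
  have e : J8 = Matrix.fromBlocks 0 1 1 0 := by decide +kernel
  have e2 : (Matrix.fromBlocks 0 1 1 0 : M8) * Matrix.fromBlocks 1 0 1 1 = Matrix.fromBlocks 1 1 1 0 := by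
    rw [Matrix.fromBlocks_multiply]; simp
  have h := congrArg Matrix.det e2
  rw [Matrix.det_mul, Matrix.det_fromBlocks_zero₁₂, Matrix.det_fromBlocks_one₁₁] at h
  rw [e]
  simp [Matrix.det_neg] at h
  exact h.trans (by decide)

lemma dims_append : ∀ a b : List Blk, dims (a ++ b) = dims a + dims b
  | [], b => by simp [dims]
  | c :: a, b => by simp [dims, dims_append a b, add_assoc]

lemma dims_replicate (c : Blk) : ∀ n : ℕ, dims (List.replicate n c) = n * c.dim
  | 0 => by simp [dims]
  | n + 1 => by simp [List.replicate_succ, dims, dims_replicate c n, Nat.succ_mul, add_comm]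

lemma dims_blks (k e n2 m f : ℕ) : dims (blks k e n2 m f) = 3 * k + 3 * e + 4 * n2 + m + f := by
  simp only [blks, dims_append, dims_replicate, Blk.dim]
  ring

lemma sgns_append : ∀ a b : List Blk, sgns (a ++ b) = sgns a * sgns b
  | [], b => by simp [sgns]
  | c :: a, b => by simp [sgns, sgns_append a b, mul_assoc]

lemma sgns_replicate (c : Blk) : ∀ n : ℕ, sgns (List.replicate n c) = c.sgn ^ n
  | 0 => by simp [sgns]
  | n + 1 => by simp [List.replicate_succ, sgns, sgns_replicate c n, pow_succ']

lemma sgns_blks (k e n2 m f : ℕ) : sgns (blks k e n2 m f) = 2 ^ e * 2 ^ f := by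
  simp only [blks, sgns_append, sgns_replicate, Blk.sgn, one_pow, one_mul]

lemma sgn_eq (d : F3) (e f : ℕ) (he : e ≤ 1) (hf : f ≤ 1) (h : d * d = 2 ^ e * 2 ^ f) : e = f := by
  rcases Nat.le_one_iff_eq_zero_or_eq_one.1 he with rfl | rfl <;>
    rcases Nat.le_one_iff_eq_zero_or_eq_one.1 hf with rfl | rfl <;> first | rfl | (revert h; revert d; decide)

lemma exists_par (k e n2 m : ℕ) (he : e ≤ 1) (hn : 3 * k + 3 * e + 4 * n2 + m + e = 8)
    (hid : ¬ (k = 0 ∧ e = 0 ∧ n2 = 0)) : ∃ i < 8, par8 i = (k, e, n2, m, e) := by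
  have hk : k ≤ 2 := by omega
  have hn2 : n2 ≤ 2 := by omega
  have hm : m ≤ 8 := by omega
  interval_cases k <;> interval_cases e <;> interval_cases n2 <;> interval_cases m <;>
    first | omega | decide

/-- A full adapted basis as a square matrix, with the parameters it can have. -/
theorem exists_adapted {X : M8} (hX : Ord3 X) (hne : X ≠ 1) :
    ∃ i < 8, ∃ C : M8, Cᵀ * J8 * C = toMat (padM (gramM (blksOf i))) ∧
      X * C = C * toMat (padM (actM (blksOf i))) := by
  obtain ⟨k, e, n2, m, f, he, hf, C, hC1, hC2, -, hC4⟩ := exists_dec hX ⊤ good_top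
  have hdet : (gramM (blks k e n2 m f)).det ≠ 0 := by
    rw [det_gramM, sgns_blks]
    exact mul_ne_zero (pow_ne_zero _ (by decide)) (pow_ne_zero _ (by decide))
  have hup : Function.Injective (C.mulVec) := by
    intro a b hab
    have h := congrArg (fun v => (Cᵀ * J8) *ᵥ v) hab
    simp only [Matrix.mulVec_mulVec, hC1] at h
    exact Matrix.mulVec_injective_iff_isUnit.2 ((Matrix.isUnit_iff_isUnit_det _).2 (isUnit_iff_ne_zero.2 hdet)) h
  have hdown : Function.Injective ((Cᵀ * J8).mulVec) := by
    intro a b hab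
    refine sub_eq_zero.1 (hC4 (a - b) trivial ?_)
    rw [Matrix.mulVec_mulVec, Matrix.mulVec_sub, show (Cᵀ * J8) *ᵥ a = (Cᵀ * J8) *ᵥ b from hab, sub_self]
  have h1 : Fintype.card (Fin (dims (blks k e n2 m f))) ≤ Fintype.card I8 := by
    have := LinearMap.finrank_le_finrank_of_injective (f := C.mulVecLin) hup
    simpa using this
  have h2 : Fintype.card I8 ≤ Fintype.card (Fin (dims (blks k e n2 m f))) := by
    have := LinearMap.finrank_le_finrank_of_injective (f := (Cᵀ * J8).mulVecLin) hdown
    simpa using this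
  simp only [Fintype.card_fin, Fintype.card_sum] at h1 h2
  have hn : dims (blks k e n2 m f) = 8 := by omega
  set C8 := C.submatrix id (idx hn) with hC8
  have g1 : C8ᵀ * J8 * C8 = toMat (padM (gramM (blks k e n2 m f))) := by
    rw [toMat_padM hn, ← hC1, hC8]; rfl
  have g2 : X * C8 = C8 * toMat (padM (actM (blks k e n2 m f))) := by
    rw [toMat_padM hn, hC8, Matrix.submatrix_mul_equiv, ← hC2]; rfl
  have hef : e = f := by
    have h := congrArg Matrix.det g1
    rw [toMat_padM hn, Matrix.det_submatrix_equiv_self, det_gramM, sgns_blks, Matrix.det_mul, Matrix.det_mul,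
      Matrix.det_transpose, det_J8, mul_one] at h
    exact sgn_eq _ e f he hf h
  rw [dims_blks] at hn
  by_cases hid : k = 0 ∧ e = 0 ∧ n2 = 0
  · refine absurd ?_ hne
    obtain ⟨rfl, rfl, rfl⟩ := hid
    subst hef
    obtain rfl : m = 8 := by omega
    have hA : toMat (padM (actM (blks 0 0 0 8 0))) = 1 := by decide +kernel
    rw [hA, Matrix.mul_one] at g2
    have hd : C8.det ≠ 0 := fun h0 => by
      have h := congrArg Matrix.det g1
      rw [Matrix.det_mul, h0, mul_zero, toMat_padM (dims_blks 0 0 0 8 0), Matrix.det_submatrix_equiv_self] at h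
      exact hdet h.symm
    calc X = X * C8 * C8⁻¹ := by rw [Matrix.mul_nonsing_inv_cancel_right _ _ (isUnit_iff_ne_zero.2 hd)]
      _ = 1 := by rw [g2, Matrix.mul_nonsing_inv _ (isUnit_iff_ne_zero.2 hd)]
  · have hi := exists_par k e n2 m he (by omega) hid
    subst hef
    obtain ⟨i, hi8, hi⟩ := hi
    have hb : blksOf i = blks k e n2 m e := by rw [blksOf, hi]
    exact ⟨i, hi8, C8, hb ▸ g1, hb ▸ g2⟩

/-- The standard element of a type. -/
noncomputable abbrev stdEl (i : ℕ) : Iso := isoOf (dat typeElt i)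

theorem exists_type (g : Iso) (h3 : g ^ 3 = 1) (hne : g ≠ 1) :
    ∃ i < 8, ∃ c : Iso, g = c * stdEl i * c⁻¹ := by
  obtain ⟨i, hi, C, hC1, hC2⟩ := exists_adapted (ord3_of_pow h3) (fun h => hne (mx_injective h))
  refine ⟨i, hi, ?_⟩
  have hok := of_range_all typeOK_all hi
  simp only [typeOK, Bool.and_eq_true, beq_iff_eq] at hok
  obtain ⟨⟨⟨hg, hA⟩, hG⟩, hI⟩ := hok
  have hA' := congrArg toMat hA
  rw [toMat_mulL, toMat_mulL, ← mx_isoOf hg] at hA'
  have hG' := congrArg toMat hG
  rw [toMat_mulL, toMat_mulL, toMat_trL, toMat_jL, ← Matrix.mul_assoc] at hG'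
  have hI' := congrArg toMat hI
  rw [toMat_mulL, toMat_oneL] at hI'
  set P := toMat (dat baseData i)
  set Pi' := toMat (dat baseInvData i)
  have hPI : P * Pi' = 1 := mul_eq_one_comm.1 hI'
  set A := toMat (padM (actM (blksOf i)))
  have hgram : (C * Pi')ᵀ * J8 * (C * Pi') = J8 := by
    calc (C * Pi')ᵀ * J8 * (C * Pi') = Pi'ᵀ * (Cᵀ * J8 * C) * Pi' := by
          rw [Matrix.transpose_mul]; simp only [Matrix.mul_assoc]
      _ = Pi'ᵀ * (Pᵀ * J8 * P) * Pi' := by rw [hC1, hG']
      _ = (P * Pi')ᵀ * J8 * (P * Pi') := by rw [Matrix.transpose_mul]; simp only [Matrix.mul_assoc]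
      _ = J8 := by rw [hPI, Matrix.transpose_one, Matrix.one_mul, Matrix.mul_one]
  have hu : IsUnit (C * Pi').det := by
    have h := congrArg Matrix.det hgram
    rw [Matrix.det_mul, Matrix.det_mul, det_J8] at h
    exact IsUnit.of_mul_eq_one_right _ h
  let c0 : GL I8 F3 := Matrix.nonsingInvUnit (C * Pi') hu
  let c : Iso := ⟨c0, mem_isometry_of_gram (g := c0) hgram⟩
  refine ⟨c, ?_⟩
  rw [eq_mul_inv_iff_mul_eq]
  refine mx_injective ?_
  show mx g * (C * Pi') = C * Pi' * mx (stdEl i)
  calc mx g * (C * Pi') = C * A * Pi' := by rw [← Matrix.mul_assoc, hC2]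
    _ = C * (Pi' * (P * A)) * Pi' := by rw [← Matrix.mul_assoc Pi', hI', Matrix.one_mul]
    _ = C * Pi' * mx (stdEl i) * (P * Pi') := by rw [← hA']; simp only [Matrix.mul_assoc]
    _ = C * Pi' * mx (stdEl i) := by rw [hPI, Matrix.mul_one]

/-- The representatives of the thirteen classes. -/
noncomputable abbrev xq (q : ℕ) : Iso := isoOf (dat classElt q)

lemma xq_mem {q : ℕ} (hq : q < 13) : xq q ∈ Omega F3 Q8 := by
  have h := of_range_all classOK_all hq
  simp only [classOK, Bool.and_eq_true] at h
  exact isoOf_mem h.1.1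

lemma xq_pow {q : ℕ} (hq : q < 13) : xq q ^ 3 = 1 := by
  have h := of_range_all classOK_all hq
  simp only [classOK, Bool.and_eq_true] at h
  have hg := goodL_of_omegaL h.1.1
  rw [pow_succ, pow_two, ← isoOf_append hg hg, ← isoOf_append (by rw [goodL_append, hg]; rfl) hg]
  refine mx_injective ?_
  rw [mx_isoOf (by rw [goodL_append, goodL_append, hg]; rfl), eq_of_beq h.2, toMat_oneL, mx_one]

lemma classMat_ne : ∀ q : Fin 13, toMat (prodL (dat classElt q.1)) ≠ 1 := by decide +kernel

lemma xq_ne {q : ℕ} (hq : q < 13) : xq q ≠ 1 := by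
  have h := of_range_all classOK_all hq
  simp only [classOK, Bool.and_eq_true, bne_iff_ne] at h
  intro he
  have := congrArg mx he
  rw [mx_isoOf (goodL_of_omegaL h.1.1), mx_one] at this
  exact classMat_ne ⟨q, hq⟩ this

lemma table_spec {i j : ℕ} (hi : i < 8) (hj : j < 4) :
    dat (dat tableClass i) j < 13 ∧ ∃ h ∈ Omega F3 Q8,
      isoOf (dat cosetElt j) * stdEl i * (isoOf (dat cosetElt j))⁻¹ = h * xq (dat (dat tableClass i) j) * h⁻¹ := by
  have h := of_range_all (of_range_all tableOK_all hi) hj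
  simp only [tableOK, Bool.and_eq_true, decide_eq_true_eq] at h
  obtain ⟨⟨hq, hw⟩, he⟩ := h
  refine ⟨hq, _, isoOf_mem hw, ?_⟩
  have hgx : goodL (dat classElt (dat (dat tableClass i) j)) = true := by
    have h' := of_range_all classOK_all hq
    simp only [classOK, Bool.and_eq_true] at h'
    exact goodL_of_omegaL h'.1.1
  have hc := of_range_all cosetOK_all hj
  simp only [cosetOK, Bool.and_eq_true] at hc
  have hgt := of_range_all typeOK_all hi
  simp only [typeOK, Bool.and_eq_true] at hgt
  have hgc : goodL (dat cosetElt j).reverse = true := by rw [goodL_reverse]; exact hc.1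
  have hinv : isoOf (dat cosetElt j).reverse = (isoOf (dat cosetElt j))⁻¹ := by
    refine eq_inv_of_mul_eq_one_right ?_
    rw [← isoOf_append hc.1 hgc]
    refine mx_injective ?_
    rw [mx_isoOf (by rw [goodL_append, hc.1, hgc]; rfl), eq_of_beq hc.2, toMat_oneL, mx_one]
  have hcc : goodL (cosConj i j) = true := by
    rw [cosConj, goodL_append, goodL_append, hc.1, hgt.1.1.1, hgc]; rfl
  have e := isoOf_congr (by rw [goodL_append, goodL_of_omegaL hw, hgx]; rfl)
    (by rw [goodL_append, hcc, goodL_of_omegaL hw]; rfl) he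
  rw [isoOf_append (goodL_of_omegaL hw) hgx, isoOf_append hcc (goodL_of_omegaL hw), cosConj,
    isoOf_append (by rw [goodL_append, hc.1, hgt.1.1.1]; rfl) hgc, isoOf_append hc.1 hgt.1.1.1, hinv] at e
  rw [eq_mul_inv_iff_mul_eq]
  exact e.symm

/-- Every element of order three of `Ω` is conjugate in `Ω` to a representative. -/
theorem exists_class (g : Iso) (hg : g ∈ Omega F3 Q8) (h3 : g ^ 3 = 1) (hne : g ≠ 1) :
    ∃ q < 13, ∃ h ∈ Omega F3 Q8, g = h * xq q * h⁻¹ := by
  obtain ⟨i, hi, c, rfl⟩ := exists_type g h3 hne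
  obtain ⟨vs, hvs, hc⟩ := exists_reflection_list hQ8 hexc8 c.2
  obtain ⟨j, hj, hjp, hjn⟩ := parity_fix (vs.length % 2 == 0) (vs.map Q8).prod
    (List.prod_ne_zero fun h0 => by
      obtain ⟨v, hv, h⟩ := List.mem_map.1 h0
      exact hvs v hv h)
  have hco := of_range_all cosetOK_all hj
  simp only [cosetOK, Bool.and_eq_true] at hco
  set cj := isoOf (dat cosetElt j) with hcj
  have hk : c * cj ∈ Omega F3 Q8 := by
    refine (mem_omega_iff_of_prod hQ8 hexc8 (c * cj) (vs ++ (dat cosetElt j).map toVec) ?_ ?_).2 ⟨?_, ?_⟩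
    · intro v hv
      rcases List.mem_append.1 hv with hv | hv
      exacts [hvs v hv, ne_of_goodL hco.1 v hv]
    · rw [List.map_append, List.prod_append, ← toMat_prodL, ← hc, ← mx_isoOf hco.1]; rfl
    · rw [List.length_append, List.length_map, Nat.even_iff]
      revert hjp
      generalize (dat cosetElt j).length = L
      intro this
      rcases Nat.mod_two_eq_zero_or_one vs.length with h | h <;> rcases Nat.mod_two_eq_zero_or_one L with h' | h' <;>
        simp [h, h'] at this <;> omega
    · rw [List.map_append, List.prod_append, ← normL_eq, hjn]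
      exact IsSquare.mul_self _
  obtain ⟨hq, h, hh, he⟩ := table_spec hi hj
  refine ⟨_, hq, c * cj * h, mul_mem hk hh, ?_⟩
  have hsq : cj⁻¹ = cj := by
    have hd : ∀ j < 4, (prodL (dat cosetElt j ++ dat cosetElt j) == oneL) = true := by decide +kernel
    refine inv_eq_of_mul_eq_one_right ?_
    rw [hcj, ← isoOf_append hco.1 hco.1]
    refine mx_injective ?_
    rw [mx_isoOf (by rw [goodL_append, hco.1]; rfl), eq_of_beq (hd j hj), toMat_oneL, mx_one]
  calc c * stdEl i * c⁻¹ = c * cj * (cj * stdEl i * cj⁻¹) * (c * cj)⁻¹ := by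
        have h1 : cj * cj = 1 := mul_eq_one_iff_eq_inv.2 hsq.symm
        rw [hsq, _root_.mul_inv_rev, hsq]
        simp only [mul_assoc]
        rw [← mul_assoc cj cj, h1, one_mul, ← mul_assoc cj cj, h1, one_mul]
    _ = c * cj * h * xq (dat (dat tableClass i) j) * (c * cj * h)⁻¹ := by rw [hcj, he]; group

end CfsgLib.O8Three88
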