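import Cfsg.Agent.O8Three88.Normal

/-! The greedy construction of adapted bases: blocks of size three first, then four, then one. -/

set_option autoImplicit false
set_option linter.unusedSectionVars false

namespace CfsgLib.O8Three88

set_option maxHeartbeats 1600000

open Cfsg Cfsg.Geo CfsgLib.OrthGeo CfsgLib.Classical.Orth Matrix

variable {X : M8} {W : Submodule F3 V8}

lemma f3_cases : ∀ a : F3, a = 0 ∨ a = 1 ∨ a = 2 := by decide

lemma f3_sq : ∀ a : F3, a ≠ 0 → a * a = 1 := by decide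

lemma three_zero : (3 : F3) = 0 := rfl

lemma exists_B8_ne (hW : Good X W) {w : V8} (hw : w ∈ W) (h0 : w ≠ 0) : ∃ u ∈ W, B8 u w ≠ 0 := by
  by_contra h
  push Not at h
  exact h0 (hW.nd w hw h)

lemma exists_aniso (hW : Good X W) (h : W ≠ ⊥) : ∃ v ∈ W, B8 v v ≠ 0 := by
  obtain ⟨w, hw, hw0⟩ := (Submodule.ne_bot_iff W).1 h
  by_contra hc
  push Not at hc
  obtain ⟨u, hu, hb⟩ := exists_B8_ne hW hw hw0
  have := hc _ (W.add_mem hu hw)
  simp only [map_add, LinearMap.add_apply, hc u hu, hc w hw, B8_comm w u, zero_add, add_zero, ← two_mul] at this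
  rcases mul_eq_zero.1 this with h2 | h2
  · exact absurd h2 (by decide)
  · exact hb h2

lemma one_block (_hW : Good X W) {v : V8} (hv : v ∈ W) (hN : nil X v = 0) {c : F3} (hc : B8 v v = c) :
    ∃ C : Matrix I8 (Fin (Blk.one c).dim) F3, (∀ j, Cᵀ j ∈ W) ∧ Cᵀ * J8 * C = (Blk.one c).gram ∧
      X * C = C * (Blk.one c).act ∧ ∃ j, Cᵀ j = v := by
  refine ⟨Matrix.of fun i _ => v i, fun _ => hv, ?_, ?_, 0, rfl⟩
  · ext i j
    rw [gram_apply]
    fin_cases i; fin_cases j
    exact hc
  · simp only [Blk.act]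
    rw [Matrix.mul_one]
    ext i j
    have := congrFun (mulVec_eq_add_nil (X := X) v) i
    rw [hN, add_zero] at this
    exact this

lemma three_block (hX : Ord3 X) (hW : Good X W) {v : V8} (hv : v ∈ W) {a : F3}
    (ha : B8 v (nil X (nil X v)) = a) (ha0 : a ≠ 0) :
    ∃ C : Matrix I8 (Fin (Blk.three a).dim) F3, (∀ j, Cᵀ j ∈ W) ∧ Cᵀ * J8 * C = (Blk.three a).gram ∧
      X * C = C * (Blk.three a).act ∧ ∃ j u, Cᵀ j = v + nil X (nil X u) := by
  obtain ⟨t, ht⟩ : ∃ t, t = B8 v v * a := ⟨_, rfl⟩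
  obtain ⟨p, hp⟩ : ∃ p, p = v + t • nil X (nil X v) := ⟨_, rfl⟩
  have hn3 := nil_three hX
  have hp1 : nil X p = nil X v := by rw [hp, nil_add, nil_smul, hn3, smul_zero, add_zero]
  have hp2 : nil X (nil X p) = nil X (nil X v) := by rw [hp1]
  have hpm : p ∈ W := hp ▸ W.add_mem hv (W.smul_mem _ (hW.nil_mem (hW.nil_mem hv)))
  have h22 : B8 (nil X (nil X v)) (nil X (nil X v)) = 0 := by
    rw [B8_nil_nil_symm hX, hn3, map_zero]
  have g02 : B8 p (nil X (nil X p)) = a := by
    rw [hp2, hp, map_add, LinearMap.add_apply, map_smul, LinearMap.smul_apply, h22, ha, smul_zero, add_zero]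
  have g00 : B8 p p = 0 := by
    simp only [hp, map_add, map_smul, LinearMap.add_apply, LinearMap.smul_apply, smul_eq_mul, h22,
      B8_comm (nil X (nil X v)) v, ha, ht]
    linear_combination B8 v v * three_zero + 2 * B8 v v * f3_sq a ha0
  have g01 : B8 p (nil X p) = -a := by
    have h := B8_nil_left hX p p
    rw [B8_comm, g02] at h
    linear_combination (B8 p (nil X p)) * three_zero - h
  have g11 : B8 (nil X p) (nil X p) = -a := by
    rw [B8_nil_left hX, hn3, map_zero, g02, zero_sub]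
  have g12 : B8 (nil X p) (nil X (nil X p)) = 0 := by
    rw [B8_nil_left hX]; simp only [hn3, nil_zero, map_zero, sub_zero]
  have g22 : B8 (nil X (nil X p)) (nil X (nil X p)) = 0 := by rw [hp2]; exact h22
  have g20 := (B8_comm (nil X (nil X p)) p).trans g02
  have g10 := (B8_comm (nil X p) p).trans g01
  have g21 := (B8_comm (nil X (nil X p)) (nil X p)).trans g12
  refine ⟨Matrix.of fun i j => ![p, nil X p, nil X (nil X p)] j i, ?_, ?_, ?_, (0 : Fin 3), t • v, ?_⟩
  · intro j
    fin_cases j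
    · exact hpm
    · exact hW.nil_mem hpm
    · exact hW.nil_mem (hW.nil_mem hpm)
  · ext i j
    rw [gram_apply]
    fin_cases i <;> fin_cases j
    exacts [g00, g01, g02, g10, g11, g12, g20, g21, g22]
  · ext i j
    rw [Matrix.mul_apply (M := Matrix.of _)]
    fin_cases j
    · refine (congrFun (mulVec_eq_add_nil (X := X) p) i).trans ?_
      simp [Blk.act, Fin.sum_univ_three]
    · refine (congrFun (mulVec_eq_add_nil (X := X) (nil X p)) i).trans ?_
      simp [Blk.act, Fin.sum_univ_three]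
    · refine (congrFun (mulVec_eq_add_nil (X := X) (nil X (nil X p))) i).trans ?_
      rw [hn3]
      simp [Blk.act, Fin.sum_univ_three]
  · show p = _
    rw [nil_smul, nil_smul, hp]

lemma two_block (hX : Ord3 X) (hW : Good X W) (h2 : ∀ u ∈ W, nil X (nil X u) = 0) {w : V8} (hw : w ∈ W)
    (hw0 : nil X w ≠ 0) :
    ∃ C : Matrix I8 (Fin Blk.two.dim) F3, (∀ j, Cᵀ j ∈ W) ∧ Cᵀ * J8 * C = Blk.two.gram ∧
      X * C = C * Blk.two.act := by
  obtain ⟨u, hu, hb⟩ := exists_B8_ne hW (hW.nil_mem hw) hw0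
  obtain ⟨v, hv, hvw⟩ : ∃ v ∈ W, B8 v (nil X w) = 1 :=
    ⟨B8 u (nil X w) • u, W.smul_mem _ hu, by rw [map_smul, LinearMap.smul_apply, smul_eq_mul, f3_sq _ hb]⟩
  have skew : ∀ a ∈ W, ∀ b ∈ W, B8 (nil X a) b = -B8 a (nil X b) := fun a _ b hb' => by
    rw [B8_nil_left hX, h2 b hb', map_zero, zero_sub]
  have alt : ∀ a ∈ W, B8 a (nil X a) = 0 := fun a ha => by
    have h := skew a ha a ha
    rw [B8_comm] at h
    linear_combination (B8 a (nil X a)) * three_zero - h
  have nn : ∀ a ∈ W, ∀ b ∈ W, B8 (nil X a) (nil X b) = 0 := fun a ha b hb' => by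
    rw [skew a ha _ (hW.nil_mem hb'), h2 b hb', map_zero, neg_zero]
  have hwv : B8 w (nil X v) = -1 := by rw [B8_comm, skew v hv w hw, hvw]
  obtain ⟨p, hp⟩ : ∃ p, p = v + B8 v v • nil X w + B8 v w • nil X v := ⟨_, rfl⟩
  obtain ⟨r, hr⟩ : ∃ r, r = w + (-B8 w w) • nil X v := ⟨_, rfl⟩
  have hpm : p ∈ W := hp ▸ W.add_mem (W.add_mem hv (W.smul_mem _ (hW.nil_mem hw))) (W.smul_mem _ (hW.nil_mem hv))
  have hrm : r ∈ W := hr ▸ W.add_mem hw (W.smul_mem _ (hW.nil_mem hv))
  have hp1 : nil X p = nil X v := by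
    rw [hp, nil_add, nil_add, nil_smul, nil_smul, h2 w hw, h2 v hv, smul_zero, smul_zero, add_zero, add_zero]
  have hr1 : nil X r = nil X w := by rw [hr, nil_add, nil_smul, h2 v hv, smul_zero, add_zero]
  have e1 : B8 (nil X w) v = 1 := (B8_comm _ _).trans hvw
  have e2 : B8 (nil X v) w = -1 := (B8_comm _ _).trans hwv
  have e3 := alt v hv
  have e4 := alt w hw
  have e5 : B8 (nil X v) v = 0 := (B8_comm _ _).trans e3
  have e6 : B8 (nil X w) w = 0 := (B8_comm _ _).trans e4
  have e7 := nn v hv v hv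
  have e8 := nn v hv w hw
  have e9 := nn w hw v hv
  have e10 := nn w hw w hw
  have g00 : B8 p p = 0 := by
    simp only [hp, map_add, map_smul, LinearMap.add_apply, LinearMap.smul_apply, smul_eq_mul, hvw, e1, e3, e5, e7,
      e8, e9, e10]
    linear_combination B8 v v * three_zero
  have g01 : B8 p r = 0 := by
    simp only [hp, hr, map_add, map_smul, LinearMap.add_apply, LinearMap.smul_apply, smul_eq_mul, e6, e2, e3, e7, e9]
    ring
  have g11 : B8 r r = 0 := by
    simp only [hr, map_add, map_smul, LinearMap.add_apply, LinearMap.smul_apply, smul_eq_mul, hwv, e2, e7]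
    linear_combination B8 w w * three_zero
  have g10 : B8 r p = 0 := (B8_comm _ _).trans g01
  have g02 : B8 p (nil X v) = 0 := by
    simp only [hp, map_add, map_smul, LinearMap.add_apply, LinearMap.smul_apply, smul_eq_mul, e3, e7, e9]
    ring
  have g03 : B8 p (nil X w) = 1 := by
    simp only [hp, map_add, map_smul, LinearMap.add_apply, LinearMap.smul_apply, smul_eq_mul, hvw, e8, e10]
    ring
  have g12 : B8 r (nil X v) = -1 := by
    simp only [hr, map_add, map_smul, LinearMap.add_apply, LinearMap.smul_apply, smul_eq_mul, hwv, e7]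
    ring
  have g13 : B8 r (nil X w) = 0 := by
    simp only [hr, map_add, map_smul, LinearMap.add_apply, LinearMap.smul_apply, smul_eq_mul, e4, e8]
    ring
  have g20 := (B8_comm (nil X v) p).trans g02
  have g30 := (B8_comm (nil X w) p).trans g03
  have g21 := (B8_comm (nil X v) r).trans g12
  have g31 := (B8_comm (nil X w) r).trans g13
  refine ⟨Matrix.of fun i j => ![p, r, nil X v, nil X w] j i, ?_, ?_, ?_⟩
  · intro j
    fin_cases j
    · exact hpm
    · exact hrm
    · exact hW.nil_mem hv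
    · exact hW.nil_mem hw
  · have g22 := nn v hv v hv
    have g23 := nn v hv w hw
    have g32 := nn w hw v hv
    have g33 := nn w hw w hw
    ext i j
    rw [gram_apply]
    fin_cases i <;> fin_cases j
    exacts [g00, g01, g02, g03, g10, g11, g12, g13, g20, g21, g22, g23, g30, g31, g32, g33]
  · ext i j
    rw [Matrix.mul_apply (M := Matrix.of _)]
    fin_cases j
    · refine (congrFun (mulVec_eq_add_nil (X := X) p) i).trans ?_
      rw [hp1]; simp [Blk.act, Fin.sum_univ_four]
    · refine (congrFun (mulVec_eq_add_nil (X := X) r) i).trans ?_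
      rw [hr1]; simp [Blk.act, Fin.sum_univ_four]
    · refine (congrFun (mulVec_eq_add_nil (X := X) (nil X v)) i).trans ?_
      rw [h2 v hv]; simp [Blk.act, Fin.sum_univ_four]
    · refine (congrFun (mulVec_eq_add_nil (X := X) (nil X w)) i).trans ?_
      rw [h2 w hw]; simp [Blk.act, Fin.sum_univ_four]

/-- The list of blocks of given multiplicities. -/
def blks (k e n2 m f : ℕ) : List Blk :=
  List.replicate k (.three 1) ++ (List.replicate e (.three 2) ++ (List.replicate n2 .two ++
    (List.replicate m (.one 1) ++ List.replicate f (.one 2))))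

lemma exists_ones (hX : Ord3 X) (W : Submodule F3 V8) :
    Good X W → (∀ v ∈ W, nil X v = 0) → ∃ m f, f ≤ 1 ∧ Dec X W (blks 0 0 0 m f) := by
  induction W using WellFoundedLT.induction with
  | ind W ih =>
    intro hW hN
    by_cases hb : W = ⊥
    · exact ⟨0, 0, by simp, hb ▸ Dec.bot X⟩
    by_cases h1 : ∃ v ∈ W, B8 v v = 1
    · obtain ⟨v, hv, hv1⟩ := h1
      obtain ⟨C, hC, hM, hT, -⟩ := one_block hW hv (hN v hv) hv1
      have hd : (Blk.one (1 : F3)).gram.det ≠ 0 := by rw [det_gram]; decide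
      obtain ⟨m, f, hf, hD⟩ := ih _ (rest_lt hC hM hd) (good_rest hX hW hC hM hd hT)
        fun u hu => hN u (mem_rest.1 hu).1
      exact ⟨m + 1, f, hf, Dec.cons hC hM hd hT hD⟩
    · push Not at h1
      obtain ⟨v, hv, hv0⟩ := exists_aniso hW hb
      have hv2 : B8 v v = 2 := ((f3_cases _).resolve_left hv0).resolve_left (h1 v hv)
      obtain ⟨C, hC, hM, hT, j, hj⟩ := one_block hW hv (hN v hv) hv2
      have hd : (Blk.one (2 : F3)).gram.det ≠ 0 := by rw [det_gram]; decide
      have hr : rest W C = ⊥ := by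
        by_contra hr
        obtain ⟨u, hu, hu0⟩ := exists_aniso (good_rest hX hW hC hM hd hT) hr
        obtain ⟨huW, huC⟩ := mem_rest.1 hu
        have hu2 : B8 u u = 2 := ((f3_cases _).resolve_left hu0).resolve_left (h1 u huW)
        have hvu : B8 v u = 0 := by
          have := congrFun huC j
          rwa [B8_col, hj] at this
        apply h1 _ (W.add_mem hv huW)
        simp only [map_add, LinearMap.add_apply, hv2, hu2, hvu, B8_comm u v]
        decide
      exact ⟨0, 1, le_rfl, Dec.cons hC hM hd hT (hr ▸ Dec.bot X)⟩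

lemma exists_twos (hX : Ord3 X) (W : Submodule F3 V8) :
    Good X W → (∀ v ∈ W, nil X (nil X v) = 0) → ∃ n2 m f, f ≤ 1 ∧ Dec X W (blks 0 0 n2 m f) := by
  induction W using WellFoundedLT.induction with
  | ind W ih =>
    intro hW h2
    by_cases hN : ∀ v ∈ W, nil X v = 0
    · obtain ⟨m, f, hf, hD⟩ := exists_ones hX W hW hN
      exact ⟨0, m, f, hf, hD⟩
    · push Not at hN
      obtain ⟨w, hw, hw0⟩ := hN
      obtain ⟨C, hC, hM, hT⟩ := two_block hX hW h2 hw hw0
      have hd : Blk.two.gram.det ≠ 0 := by rw [det_gram]; decide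
      obtain ⟨n2, m, f, hf, hD⟩ := ih _ (rest_lt hC hM hd) (good_rest hX hW hC hM hd hT)
        fun u hu => h2 u (mem_rest.1 hu).1
      exact ⟨n2 + 1, m, f, hf, Dec.cons hC hM hd hT hD⟩

lemma exists_form_ne (hX : Ord3 X) (hW : Good X W) {w : V8} (hw : w ∈ W) (hw0 : nil X (nil X w) ≠ 0) :
    ∃ v ∈ W, B8 v (nil X (nil X v)) ≠ 0 := by
  by_contra hc
  push Not at hc
  obtain ⟨u, hu, hb⟩ := exists_B8_ne hW (hW.nil_mem (hW.nil_mem hw)) hw0
  have hs : B8 w (nil X (nil X u)) = B8 u (nil X (nil X w)) := by rw [← B8_nil_nil_symm hX, B8_comm]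
  have := hc _ (W.add_mem hu hw)
  simp only [nil_add, map_add, LinearMap.add_apply, hc u hu, hc w hw, hs, zero_add, add_zero, ← two_mul] at this
  rcases mul_eq_zero.1 this with h2 | h2
  · exact absurd h2 (by decide)
  · exact hb h2

theorem exists_dec (hX : Ord3 X) (W : Submodule F3 V8) :
    Good X W → ∃ k e n2 m f, e ≤ 1 ∧ f ≤ 1 ∧ Dec X W (blks k e n2 m f) := by
  induction W using WellFoundedLT.induction with
  | ind W ih =>
    intro hW
    by_cases h2 : ∀ v ∈ W, nil X (nil X v) = 0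
    · obtain ⟨n2, m, f, hf, hD⟩ := exists_twos hX W hW h2
      exact ⟨0, 0, n2, m, f, by simp, hf, hD⟩
    by_cases h1 : ∃ v ∈ W, B8 v (nil X (nil X v)) = 1
    · obtain ⟨v, hv, hv1⟩ := h1
      obtain ⟨C, hC, hM, hT, -⟩ := three_block hX hW hv hv1 (by decide)
      have hd : (Blk.three (1 : F3)).gram.det ≠ 0 := by rw [det_gram]; decide
      obtain ⟨k, e, n2, m, f, he, hf, hD⟩ := ih _ (rest_lt hC hM hd) (good_rest hX hW hC hM hd hT)
      exact ⟨k + 1, e, n2, m, f, he, hf, Dec.cons hC hM hd hT hD⟩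
    · push Not at h1 h2
      obtain ⟨w, hw, hw0⟩ := h2
      obtain ⟨v, hv, hv0⟩ := exists_form_ne hX hW hw hw0
      have hv2 : B8 v (nil X (nil X v)) = 2 := ((f3_cases _).resolve_left hv0).resolve_left (h1 v hv)
      obtain ⟨C, hC, hM, hT, j, t, hj⟩ := three_block hX hW hv hv2 (by decide)
      have hd : (Blk.three (2 : F3)).gram.det ≠ 0 := by rw [det_gram]; decide
      have hG := good_rest hX hW hC hM hd hT
      have hr : ∀ u ∈ rest W C, nil X (nil X u) = 0 := by
        by_contra hr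
        push Not at hr
        obtain ⟨w', hw', hw'0⟩ := hr
        obtain ⟨u, hu, hu0⟩ := exists_form_ne hX hG hw' hw'0
        obtain ⟨huW, huC⟩ := mem_rest.1 hu
        have hu2 : B8 u (nil X (nil X u)) = 2 := ((f3_cases _).resolve_left hu0).resolve_left (h1 u huW)
        have hvu : B8 v (nil X (nil X u)) = 0 := by
          have := congrFun (mem_rest.1 (hG.nil_mem (hG.nil_mem hu))).2 j
          rw [B8_col, hj, map_add, LinearMap.add_apply, B8_nil_nil_symm hX, nil_three hX, map_zero,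
            add_zero] at this
          exact this
        have huv : B8 u (nil X (nil X v)) = 0 := by rwa [← B8_nil_nil_symm hX, B8_comm]
        apply h1 _ (W.add_mem hv huW)
        simp only [nil_add, map_add, LinearMap.add_apply, hv2, hu2, hvu, huv]
        decide
      obtain ⟨n2, m, f, hf, hD⟩ := exists_twos hX _ hG hr
      exact ⟨0, 1, n2, m, f, le_rfl, hf, Dec.cons hC hM hd hT hD⟩

end CfsgLib.O8Three88
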