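import Cfsg.Agent.O8Three88.Conj

/-! Four invariants separating the eight types: values and zeros of `v ↦ B(v, N²v)` and the rank of `N`. -/

set_option autoImplicit false
set_option linter.unusedSectionVars false

namespace CfsgLib.O8Three88

open Cfsg Cfsg.Geo CfsgLib.OrthGeo CfsgLib.Classical.Orth Matrix

/-- The form attached to the square of the nilpotent part. -/
noncomputable def sf (X : M8) (v : V8) : F3 := B8 v (nil X (nil X v))

/-- The form takes a value. -/
def Takes (X : M8) (c : F3) : Prop := ∃ v, sf X v = c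

/-- The form vanishes somewhere outside its radical. -/
def Isotropic (X : M8) : Prop := ∃ v, sf X v = 0 ∧ nil X (nil X v) ≠ 0

/-- The nilpotent part has small rank. -/
def LowRank (X : M8) : Prop := (X - 1).rank ≤ 2

/-- The invariants agree. -/
structure Same (X Y : M8) : Prop where
  one : Takes X 1 ↔ Takes Y 1
  two : Takes X 2 ↔ Takes Y 2
  iso : Isotropic X ↔ Isotropic Y
  low : LowRank X ↔ LowRank Y

lemma Same.symm {X Y : M8} (h : Same X Y) : Same Y X := ⟨h.one.symm, h.two.symm, h.iso.symm, h.low.symm⟩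

lemma Same.trans {X Y Z : M8} (h : Same X Y) (h' : Same Y Z) : Same X Z :=
  ⟨h.one.trans h'.one, h.two.trans h'.two, h.iso.trans h'.iso, h.low.trans h'.low⟩

lemma same_conj (g c : Iso) : Same (mx (c * g * c⁻¹)) (mx g) := by
  have hc : ∀ v, nil (mx (c * g * c⁻¹)) (mx c *ᵥ v) = mx c *ᵥ nil (mx g) v := by
    intro v
    rw [nil, nil, Matrix.mulVec_sub, Matrix.mulVec_mulVec, Matrix.mulVec_mulVec, ← mx_mul, ← mx_mul,
      inv_mul_cancel_right]
  have hs : ∀ v, sf (mx (c * g * c⁻¹)) (mx c *ᵥ v) = sf (mx g) v := by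
    intro v
    rw [sf, hc, hc]
    exact gram_of_mem_isometry c.2 _ _
  have hsurj : ∀ v, ∃ w, mx c *ᵥ w = v := fun v =>
    ⟨mx c⁻¹ *ᵥ v, by rw [Matrix.mulVec_mulVec, ← mx_mul, mul_inv_cancel, mx_one, Matrix.one_mulVec]⟩
  have hz : ∀ v, mx c *ᵥ v = 0 ↔ v = 0 := fun v => by
    refine ⟨fun h => ?_, fun h => by rw [h, Matrix.mulVec_zero]⟩
    have := congrArg (mx c⁻¹ *ᵥ ·) h
    simpa [Matrix.mulVec_mulVec, ← mx_mul, mx_one] using this
  have ht : ∀ t, Takes (mx (c * g * c⁻¹)) t ↔ Takes (mx g) t := fun t =>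
    ⟨fun ⟨v, hv⟩ => by obtain ⟨w, rfl⟩ := hsurj v; exact ⟨w, by rwa [hs] at hv⟩,
      fun ⟨w, hw⟩ => ⟨mx c *ᵥ w, by rwa [hs]⟩⟩
  refine ⟨ht 1, ht 2, ⟨?_, ?_⟩, ?_⟩
  · rintro ⟨v, hv, hn⟩
    obtain ⟨w, rfl⟩ := hsurj v
    rw [hs] at hv
    rw [hc, hc, Ne, hz] at hn
    exact ⟨w, hv, hn⟩
  · rintro ⟨w, hw, hn⟩
    exact ⟨mx c *ᵥ w, by rwa [hs], by rwa [hc, hc, Ne, hz]⟩
  · have e : mx (c * g * c⁻¹) - 1 = mx c * (mx g - 1) * mx c⁻¹ := by
      rw [Matrix.mul_sub, Matrix.sub_mul, Matrix.mul_one, ← mx_mul, ← mx_mul, ← mx_mul, mul_inv_cancel, mx_one]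
    have hu : ∀ d : Iso, IsUnit (mx d).det := fun d => (Matrix.isUnit_iff_isUnit_det _).1 (d : GL I8 F3).isUnit
    rw [LowRank, LowRank, e, Matrix.rank_mul_eq_left_of_isUnit_det _ _ (hu _),
      Matrix.rank_mul_eq_right_of_isUnit_det _ _ (hu _)]

lemma same_inv {g : Iso} (h3 : g ^ 3 = 1) : Same (mx g⁻¹) (mx g) := by
  have hinv : g⁻¹ = g * g := inv_eq_of_mul_eq_one_right (by rw [← pow_two, ← pow_succ', h3])
  have hX := ord3_of_pow h3
  have hn : ∀ v, nil (mx g⁻¹) (nil (mx g⁻¹) v) = nil (mx g) (nil (mx g) v) := by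
    intro v
    have hv : ∀ v, nil (mx g⁻¹) v = nil (mx g) (nil (mx g) v) + (2 : F3) • nil (mx g) v := by
      intro v
      rw [hinv, mx_mul]
      simp only [nil, ← Matrix.mulVec_mulVec, Matrix.mulVec_sub]
      funext i
      simp only [Pi.sub_apply, Pi.add_apply, Pi.smul_apply, smul_eq_mul]
      ring
    rw [hv, hv]
    simp only [nil_add, nil_smul, nil_three hX, smul_zero, smul_smul, zero_add]
    rw [show (2 : F3) * 2 = 1 by decide, one_smul]
  have hs : ∀ v, sf (mx g⁻¹) v = sf (mx g) v := fun v => by rw [sf, sf, hn]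
  have hr : ∀ h : Iso, (mx (h * h) - 1).rank ≤ (mx h - 1).rank := by
    intro h
    rw [show mx (h * h) - 1 = (mx h + 1) * (mx h - 1) by rw [mx_mul]; noncomm_ring]
    exact Matrix.rank_mul_le_right _ _
  refine ⟨?_, ?_, ?_, ?_⟩
  · simp only [Takes, hs]
  · simp only [Takes, hs]
  · simp only [Isotropic, hs, hn]
  · have h1 := hr g
    have h2 := hr g⁻¹
    rw [← hinv] at h1
    rw [show g⁻¹ * g⁻¹ = g by rw [← _root_.mul_inv_rev, ← hinv, inv_inv]] at h2
    rw [LowRank, LowRank]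
    omega

/-- The two diagonal entries of the form of each type. -/
def diagVal : List (F3 × F3) := [(0, 0), (0, 0), (2, 0), (2, 0), (1, 0), (1, 0), (1, 2), (1, 1)]

/-- The diagonal of the form of a type. -/
def diagOf (i : ℕ) : I8 → F3 := fun x =>
  if x = .inl 0 then (diagVal.getD i (0, 0)).1 else if x = .inl 3 then (diagVal.getD i (0, 0)).2 else 0

/-- The types of small rank. -/
def lowType (i : ℕ) : Bool := i == 0 || i == 2 || i == 4

/-- The action matrix of a type minus one. -/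
def nilMat (i : ℕ) : M8 := toMat (padM (actM (blksOf i))) - 1

lemma diag_check : ∀ i : Fin 8,
    toMat (padM (gramM (blksOf i))) * (nilMat i * nilMat i) = Matrix.diagonal (diagOf i) := by
  decide +kernel

lemma low_check : ∀ i : Fin 8, lowType i = true →
    nilMat i = nilMat i * Matrix.diagonal (fun x : I8 => if x = .inl 0 ∨ x = .inl 1 then (1 : F3) else 0) := by
  decide +kernel

/-- Rows and columns of a minor. -/
def minorAt (i : ℕ) : (Fin 3 → I8) × (Fin 3 → I8) :=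
  if i = 1 then (![.inl 2, .inl 3, .inr 2], ![.inl 0, .inl 1, .inr 0])
  else (![.inl 1, .inl 2, if i = 6 ∨ i = 7 then .inr 0 else .inr 1], ![.inl 0, .inl 1, .inl 3])

lemma high_check : ∀ i : Fin 8, lowType i = false →
    (1 : M8).submatrix (minorAt i).1 id * nilMat i * (1 : M8).submatrix id (minorAt i).2 = 1 := by
  decide +kernel

/-- The predicted invariants of a type. -/
def predTakes (i : ℕ) (c : F3) : Prop :=
  ∃ a b : F3, (diagVal.getD i (0, 0)).1 * (a * a) + (diagVal.getD i (0, 0)).2 * (b * b) = c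

/-- The predicted isotropy. -/
def predIso (i : ℕ) : Prop :=
  ∃ a b : F3, (diagVal.getD i (0, 0)).1 * (a * a) + (diagVal.getD i (0, 0)).2 * (b * b) = 0 ∧
    ((diagVal.getD i (0, 0)).1 * a ≠ 0 ∨ (diagVal.getD i (0, 0)).2 * b ≠ 0)

instance decPredTakes88 (i : ℕ) (c : F3) : Decidable (predTakes i c) := by unfold predTakes; infer_instance

instance decPredIso88 (i : ℕ) : Decidable (predIso i) := by unfold predIso; infer_instance

theorem pred_inj : ∀ i j : Fin 8, (predTakes i 1 ↔ predTakes j 1) → (predTakes i 2 ↔ predTakes j 2) →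
    (predIso i ↔ predIso j) → (lowType i = lowType j) → i = j := by
  decide +kernel

lemma eval_std {i : ℕ} (hi : i < 8) :
    (∀ c, Takes (mx (stdEl i)) c ↔ predTakes i c) ∧ (Isotropic (mx (stdEl i)) ↔ predIso i) ∧
      (LowRank (mx (stdEl i)) ↔ lowType i = true) := by
  have hok := of_range_all typeOK_all hi
  simp only [typeOK, Bool.and_eq_true, beq_iff_eq] at hok
  obtain ⟨⟨⟨hg, hA⟩, hG⟩, hI⟩ := hok
  have hA' := congrArg toMat hA
  rw [toMat_mulL, toMat_mulL, ← mx_isoOf hg] at hA'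
  have hG' := congrArg toMat hG
  rw [toMat_mulL, toMat_mulL, toMat_trL, toMat_jL, ← Matrix.mul_assoc] at hG'
  have hI' := congrArg toMat hI
  rw [toMat_mulL, toMat_oneL] at hI'
  set P := toMat (dat baseData i) with hP
  set Pi' := toMat (dat baseInvData i)
  have hPI : P * Pi' = 1 := mul_eq_one_comm.1 hI'
  set R := mx (stdEl i) with hR
  have hN : (R - 1) * P = P * nilMat i := by
    rw [nilMat, Matrix.sub_mul, Matrix.mul_sub, hA', Matrix.one_mul, Matrix.mul_one]
  have hn : ∀ y, nil R (P *ᵥ y) = P *ᵥ (nilMat i *ᵥ y) := fun y => by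
    rw [Matrix.mulVec_mulVec, ← hN, ← Matrix.mulVec_mulVec, Matrix.sub_mulVec, Matrix.one_mulVec]; rfl
  have hd := diag_check ⟨i, hi⟩
  have hsum : ∀ y : V8, sf R (P *ᵥ y) =
      (diagVal.getD i (0, 0)).1 * (y (.inl 0) * y (.inl 0)) + (diagVal.getD i (0, 0)).2 * (y (.inl 3) * y (.inl 3)) := by
    intro y
    rw [sf, hn, hn, B8_eq, ← Matrix.vecMul_transpose, ← Matrix.dotProduct_mulVec, Matrix.mulVec_mulVec,
      Matrix.mulVec_mulVec, Matrix.mulVec_mulVec, Matrix.mulVec_mulVec, hG',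
      show toMat (padM (gramM (blksOf i))) * nilMat i * nilMat i = Matrix.diagonal (diagOf i) by
        rw [Matrix.mul_assoc]; exact hd,
      dotProduct, sum_I8]
    simp [Matrix.mulVec_diagonal, diagOf]
    ring
  have hzero : ∀ y : V8, nil R (nil R (P *ᵥ y)) = 0 ↔
      (diagVal.getD i (0, 0)).1 * y (.inl 0) = 0 ∧ (diagVal.getD i (0, 0)).2 * y (.inl 3) = 0 := by
    intro y
    rw [hn, hn]
    have e : ∀ z, z = 0 ↔ (Pᵀ * J8) *ᵥ z = 0 := by
      intro z
      refine ⟨fun h => by rw [h, Matrix.mulVec_zero], fun h => ?_⟩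
      have h' := congrArg ((J8 * Pi'ᵀ) *ᵥ ·) h
      simp only [Matrix.mulVec_mulVec, Matrix.mulVec_zero] at h'
      rwa [show J8 * Pi'ᵀ * (Pᵀ * J8) = 1 by
        rw [Matrix.mul_assoc, ← Matrix.mul_assoc Pi'ᵀ, ← Matrix.transpose_mul, hPI, Matrix.transpose_one,
          Matrix.one_mul]
        decide +kernel, Matrix.one_mulVec] at h'
    rw [e, Matrix.mulVec_mulVec, Matrix.mulVec_mulVec, Matrix.mulVec_mulVec, hG', Matrix.mul_assoc, hd,
      funext_iff]
    simp only [Matrix.mulVec_diagonal, diagOf, Pi.zero_apply]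
    refine ⟨fun h => ⟨by simpa using h (.inl 0), by simpa using h (.inl 3)⟩, fun h x => ?_⟩
    split
    · rename_i hx; rw [hx]; exact h.1
    split
    · rename_i hx; rw [hx]; exact h.2
    · rw [zero_mul]
  have hsurj : ∀ v, ∃ y, P *ᵥ y = v := fun v =>
    ⟨Pi' *ᵥ v, by rw [Matrix.mulVec_mulVec, hPI, Matrix.one_mulVec]⟩
  let vec (a b : F3) : V8 := fun x => if x = .inl 0 then a else if x = .inl 3 then b else 0
  refine ⟨fun c => ⟨?_, ?_⟩, ⟨?_, ?_⟩, ?_⟩
  · rintro ⟨v, hv⟩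
    obtain ⟨y, rfl⟩ := hsurj v
    exact ⟨_, _, (hsum y).symm.trans hv⟩
  · rintro ⟨a, b, h⟩
    exact ⟨P *ᵥ vec a b, by rw [hsum]; simpa [vec] using h⟩
  · rintro ⟨v, hv, hne⟩
    obtain ⟨y, rfl⟩ := hsurj v
    refine ⟨_, _, (hsum y).symm.trans hv, ?_⟩
    rw [Ne, hzero, not_and_or] at hne
    exact hne
  · rintro ⟨a, b, h, hne⟩
    refine ⟨P *ᵥ vec a b, by rw [hsum]; simpa [vec] using h, ?_⟩
    rw [Ne, hzero, not_and_or]
    simpa [vec] using hne
  · have hu : IsUnit P.det := IsUnit.of_mul_eq_one _ (by rw [← Matrix.det_mul, hPI, Matrix.det_one])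
    have hrk : (R - 1).rank = (nilMat i).rank := by
      rw [← Matrix.rank_mul_eq_left_of_isUnit_det P (R - 1) hu, hN,
        Matrix.rank_mul_eq_right_of_isUnit_det P _ hu]
    rw [LowRank, hrk]
    rcases hb : lowType i with _ | _
    · simp only [Bool.false_eq_true, iff_false, not_le]
      have h := congrArg Matrix.rank (high_check ⟨i, hi⟩ hb)
      rw [Matrix.rank_one, Fintype.card_fin] at h
      have h1 := Matrix.rank_mul_le_left ((1 : M8).submatrix (minorAt i).1 id * nilMat i)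
        ((1 : M8).submatrix id (minorAt i).2)
      have h2 := Matrix.rank_mul_le_right ((1 : M8).submatrix (minorAt i).1 id) (nilMat i)
      simp only at h
      omega
    · simp only [iff_true]
      rw [low_check ⟨i, hi⟩ hb]
      refine (Matrix.rank_mul_le_right _ _).trans (le_of_eq ?_)
      rw [Matrix.rank_diagonal]
      decide +kernel

/-- An element has a type. -/
def HasType (g : Iso) (i : ℕ) : Prop := i < 8 ∧ ∃ c : Iso, g = c * stdEl i * c⁻¹

lemma HasType.conj {g : Iso} {i : ℕ} (h : HasType g i) (d : Iso) : HasType (d * g * d⁻¹) i := by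
  obtain ⟨hi, c, rfl⟩ := h
  exact ⟨hi, d * c, by group⟩

lemma HasType.same {g : Iso} {i : ℕ} (h : HasType g i) : Same (mx g) (mx (stdEl i)) := by
  obtain ⟨-, c, rfl⟩ := h
  exact same_conj _ _

theorem HasType.unique {g : Iso} {i j : ℕ} (h : HasType g i) (h' : HasType g j) : i = j := by
  have hs := h.same.symm.trans h'.same
  obtain ⟨t1, u1, l1⟩ := eval_std h.1
  obtain ⟨t2, u2, l2⟩ := eval_std h'.1
  refine congrArg Fin.val (pred_inj ⟨i, h.1⟩ ⟨j, h'.1⟩ ?_ ?_ ?_ ?_)
  · exact (t1 1).symm.trans (hs.one.trans (t2 1))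
  · exact (t1 2).symm.trans (hs.two.trans (t2 2))
  · exact u1.symm.trans (hs.iso.trans u2)
  · exact Bool.eq_iff_iff.2 (l1.symm.trans (hs.low.trans l2))

lemma HasType.inv {g : Iso} {i : ℕ} (h : HasType g i) (h3 : g ^ 3 = 1) (hne : g ≠ 1) : HasType g⁻¹ i := by
  obtain ⟨j, hj, c, hc⟩ := exists_type g⁻¹ (by rw [inv_pow, h3, inv_one]) (fun e => hne (inv_eq_one.1 e))
  have hj' : HasType g⁻¹ j := ⟨hj, c, hc⟩
  obtain ⟨t1, u1, l1⟩ := eval_std h.1
  obtain ⟨t2, u2, l2⟩ := eval_std hj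
  have hs := hj'.same.symm.trans ((same_inv h3).trans h.same)
  have e : j = i := congrArg Fin.val (pred_inj ⟨j, hj⟩ ⟨i, h.1⟩ ((t2 1).symm.trans (hs.one.trans (t1 1)))
    ((t2 2).symm.trans (hs.two.trans (t1 2))) (u2.symm.trans (hs.iso.trans u1))
    (Bool.eq_iff_iff.2 (l2.symm.trans (hs.low.trans l1))))
  exact e ▸ hj'

end CfsgLib.O8Three88
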