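import Cfsg.Agent.Classical.Orth.Omega
import Cfsg.Agent.Classical.Orth.Forms
import Cfsg.Agent.AutOrth.Plus
import Cfsg.Agent.O8Three88.Data

/-! Matrices over the field with three elements as lists of lists of natural numbers, and the products of
reflections in dimension eight they describe. -/

set_option autoImplicit false
set_option linter.unusedSectionVars false

namespace CfsgLib.O8Three88

open Cfsg Cfsg.Geo CfsgLib.OrthGeo CfsgLib.Classical.Orth Matrix

/-- The index type. -/
abbrev I8 := Fin 4 ⊕ Fin 4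

/-- The field. -/
abbrev F3 := ZMod 3

instance fact_prime_three88 : Fact (Nat.Prime 3) := ⟨Nat.prime_three⟩

instance fact_four88 : Fact (4 ≤ 4) := ⟨le_rfl⟩

/-- The space. -/
abbrev V8 := I8 → F3

/-- Eight by eight matrices. -/
abbrev M8 := Matrix I8 I8 F3

/-- The hyperbolic form. -/
abbrev Q8 : V8 → F3 := Cfsg.quadFormPlus 4 F3

lemma hQ8 : IsNondegenerateQuadraticForm Q8 := isNondegQF_quadFormPlus 4

lemma hexc8 : ¬ (Nat.card F3 = 2 ∧ Fintype.card I8 = 4) := fun h => by
  simp [Fintype.card_sum] at h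

/-- The position of an index. -/
def ix : I8 → ℕ
  | .inl i => i
  | .inr i => 4 + i

/-- The vector of a list. -/
def toVec (v : List ℕ) : V8 := fun i => ((v.getD (ix i) 0 : ℕ) : F3)

/-- The matrix of a list of rows. -/
def toMat (A : List (List ℕ)) : M8 := fun i j => (((A.getD (ix i) []).getD (ix j) 0 : ℕ) : F3)

/-- A table built from a function. -/
def tab (f : ℕ → ℕ) : List ℕ := [f 0, f 1, f 2, f 3, f 4, f 5, f 6, f 7]

/-- A matrix table built from a function. -/
def tab2 (f : ℕ → ℕ → ℕ) : List (List ℕ) :=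
  [tab (f 0), tab (f 1), tab (f 2), tab (f 3), tab (f 4), tab (f 5), tab (f 6), tab (f 7)]

lemma tab_getD (f : ℕ → ℕ) (i : I8) : (tab f).getD (ix i) 0 = f (ix i) := by
  rcases i with i | i <;> fin_cases i <;> rfl

lemma tab2_getD (f : ℕ → ℕ → ℕ) (i j : I8) : ((tab2 f).getD (ix i) []).getD (ix j) 0 = f (ix i) (ix j) := by
  have : (tab2 f).getD (ix i) [] = tab (f (ix i)) := by rcases i with i | i <;> fin_cases i <;> rfl
  rw [this, tab_getD]

/-- An entry. -/
def ent (A : List (List ℕ)) (i j : ℕ) : ℕ := (A.getD i []).getD j 0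

/-- Product of tables. -/
def mulL (A B : List (List ℕ)) : List (List ℕ) :=
  tab2 fun i j => (ent A i 0 * ent B 0 j + ent A i 1 * ent B 1 j + ent A i 2 * ent B 2 j + ent A i 3 * ent B 3 j +
    ent A i 4 * ent B 4 j + ent A i 5 * ent B 5 j + ent A i 6 * ent B 6 j + ent A i 7 * ent B 7 j) % 3

/-- The unit table. -/
def oneL : List (List ℕ) := tab2 fun i j => if i = j then 1 else 0

/-- Sum of eight terms. -/
lemma sum_I8 {M : Type*} [AddCommMonoid M] (f : I8 → M) :
    ∑ i, f i = f (.inl 0) + f (.inl 1) + f (.inl 2) + f (.inl 3) + f (.inr 0) + f (.inr 1) + f (.inr 2) + f (.inr 3) := by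
  simp only [Fintype.sum_sum_type, Fin.sum_univ_four, ← add_assoc]

lemma toMat_mulL (A B : List (List ℕ)) : toMat (mulL A B) = toMat A * toMat B := by
  ext i j
  rw [Matrix.mul_apply, sum_I8]
  simp only [toMat, mulL]
  rw [tab2_getD]
  simp only [ent, ZMod.natCast_mod, Nat.cast_add, Nat.cast_mul]
  rfl

lemma ix_injective : Function.Injective ix := by decide

lemma toMat_oneL : toMat oneL = 1 := by
  ext i j
  simp only [toMat, oneL, tab2_getD, Matrix.one_apply, ix_injective.eq_iff]
  split <;> simp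

/-- The polar form on lists. -/
def polL (v : List ℕ) (j : ℕ) : ℕ := v.getD (if j < 4 then j + 4 else j - 4) 0

/-- The form on lists. -/
def qL (v : List ℕ) : ℕ :=
  (v.getD 0 0 * v.getD 4 0 + v.getD 1 0 * v.getD 5 0 + v.getD 2 0 * v.getD 6 0 + v.getD 3 0 * v.getD 7 0) % 3

lemma qL_eq (v : List ℕ) : (qL v : F3) = Q8 (toVec v) := by
  simp only [qL, Q8, Cfsg.quadFormPlus, Fin.sum_univ_four, toVec, ix, ZMod.natCast_mod, Nat.cast_add, Nat.cast_mul]
  rfl

/-- The reflection table. -/
def reflL (v : List ℕ) : List (List ℕ) :=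
  tab2 fun i j => ((if i = j then 1 else 0) + 2 * qL v * (v.getD i 0) * polL v j) % 3

/-- The swap of the two halves. -/
def swap8 : I8 → I8 := Sum.swap

lemma polar_single (v : V8) (j : I8) : QuadraticMap.polar Q8 v (Pi.single j 1) = v (swap8 j) := by
  rcases j with j | j <;> fin_cases j <;>
    simp [QuadraticMap.polar, Q8, Cfsg.quadFormPlus, Fin.sum_univ_four, swap8] <;> ring

lemma polL_eq (v : List ℕ) (j : I8) : (polL v (ix j) : F3) = toVec v (swap8 j) := by
  rcases j with j | j <;> fin_cases j <;> rfl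

lemma inv_three : ∀ a : F3, a⁻¹ = a := by decide +kernel

lemma toMat_reflL (v : List ℕ) : toMat (reflL v) = Cfsg.reflectionMatrix Q8 (toVec v) := by
  ext i j
  simp only [toMat, reflL, tab2_getD, ZMod.natCast_mod, Nat.cast_add, Nat.cast_mul, qL_eq, polL_eq]
  simp only [Cfsg.reflectionMatrix, Matrix.sub_apply, Matrix.smul_apply, Matrix.vecMulVec_apply, Matrix.one_apply,
    Cfsg.polarVec, polar_single, smul_eq_mul, inv_three, ix_injective.eq_iff]
  rw [show ((v.getD (ix i) 0 : ℕ) : F3) = toVec v i from rfl]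
  have h2 : (2 : F3) = -1 := rfl
  split <;> simp [h2] <;> ring

/-- The product of reflections given by lists. -/
def prodL : List (List ℕ) → List (List ℕ)
  | [] => oneL
  | v :: vs => mulL (reflL v) (prodL vs)

/-- All vectors of a list are non-singular. -/
def goodL (vs : List (List ℕ)) : Bool := vs.all fun v => qL v != 0

/-- The product of the norms. -/
def normL : List (List ℕ) → ℕ
  | [] => 1
  | v :: vs => qL v * normL vs % 3

/-- The list describes an element of `Ω`. -/
def omegaL (vs : List (List ℕ)) : Bool := goodL vs && (vs.length % 2 == 0) && (normL vs == 1)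

lemma qL_lt (v : List ℕ) : qL v < 3 := Nat.mod_lt _ (by norm_num)

lemma natCast_ne_zero_of_lt {n : ℕ} (h : n < 3) (h0 : n ≠ 0) : ((n : ℕ) : F3) ≠ 0 := by
  interval_cases n <;> first | omega | decide

lemma ne_of_goodL {vs : List (List ℕ)} (h : goodL vs = true) :
    ∀ w ∈ vs.map toVec, Q8 w ≠ 0 := by
  intro w hw
  obtain ⟨v, hv, rfl⟩ := List.mem_map.1 hw
  rw [← qL_eq]
  exact natCast_ne_zero_of_lt (qL_lt v) (by simpa [goodL] using List.all_eq_true.1 h v hv)

lemma toMat_prodL (vs : List (List ℕ)) :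
    toMat (prodL vs) = ((vs.map toVec).map (fun v => Cfsg.reflectionMatrix Q8 v)).prod := by
  induction vs with
  | nil => simp [prodL, toMat_oneL]
  | cons v vs ih => rw [prodL, toMat_mulL, toMat_reflL, ih]; rfl

lemma exists_isometry {vs : List (List ℕ)} (h : goodL vs = true) :
    ∃ g : isometryGroup F3 Q8, ((g : GL I8 F3) : M8) = toMat (prodL vs) := by
  induction vs with
  | nil => exact ⟨1, by simp [prodL, toMat_oneL]⟩
  | cons v vs ih =>
    have hv : Q8 (toVec v) ≠ 0 := ne_of_goodL h _ (by simp)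
    obtain ⟨g, hg⟩ := ih (by simp [goodL] at h ⊢; exact h.2)
    refine ⟨refl hQ8 hv * g, ?_⟩
    rw [Subgroup.coe_mul, Units.val_mul, hg, prodL, toMat_mulL, toMat_reflL]
    rfl

lemma normL_eq (vs : List (List ℕ)) : (normL vs : F3) = ((vs.map toVec).map Q8).prod := by
  induction vs with
  | nil => simp [normL]
  | cons v vs ih => simp [normL, ZMod.natCast_mod, ih, qL_eq]

theorem exists_omega {vs : List (List ℕ)} (h : omegaL vs = true) :
    ∃ k : Omega F3 Q8, (((k : isometryGroup F3 Q8) : GL I8 F3) : M8) = toMat (prodL vs) := by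
  simp only [omegaL, Bool.and_eq_true, beq_iff_eq] at h
  obtain ⟨⟨h1, h2⟩, h3⟩ := h
  obtain ⟨g, hg⟩ := exists_isometry h1
  refine ⟨⟨g, (mem_omega_iff_of_prod hQ8 hexc8 g (vs.map toVec) (ne_of_goodL h1)
    (hg.trans (toMat_prodL vs))).2 ⟨?_, ?_⟩⟩, hg⟩
  · rw [List.length_map]; exact Nat.even_iff.2 h2
  · rw [← normL_eq, h3]; simp

/-- The polar form as a bilinear form. -/
noncomputable abbrev B8 : LinearMap.BilinForm F3 V8 := bform hQ8

/-- The Gram matrix of the hyperbolic form. -/
def J8 : M8 := fun i j => if swap8 i = j then 1 else 0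

lemma J8_mulVec (v : V8) : J8 *ᵥ v = fun i => v (swap8 i) := by
  funext i
  simp [Matrix.mulVec, dotProduct, J8]

lemma B8_eq (u v : V8) : B8 u v = u ⬝ᵥ (J8 *ᵥ v) := by
  rw [J8_mulVec]
  simp only [B8, bform_apply, QuadraticMap.polar, Q8, Cfsg.quadFormPlus, Fin.sum_univ_four, Pi.add_apply, dotProduct,
    sum_I8, swap8, Sum.swap_inl, Sum.swap_inr]
  ring

lemma q_eq_two_b (v : V8) : Q8 v = 2 * B8 v v := by
  have h4 : (2 : F3) * 2 = 1 := by decide
  rw [b_self hQ8, ← mul_assoc, h4, one_mul]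

/-- Matrices with the Gram matrix of the form are isometries. -/
lemma mem_isometry_of_gram {g : GL I8 F3} (h : ((g : M8))ᵀ * J8 * (g : M8) = J8) :
    g ∈ isometryGroup F3 Q8 := by
  rw [mem_isometryGroup]
  intro v
  rw [q_eq_two_b, q_eq_two_b, B8_eq, B8_eq]
  refine congrArg (fun t => (2 : F3) * t) ?_
  conv_rhs => rw [← h]
  rw [← Matrix.mulVec_mulVec, ← Matrix.mulVec_mulVec, Matrix.dotProduct_mulVec v, Matrix.vecMul_transpose]

lemma gram_of_mem_isometry {g : GL I8 F3} (h : g ∈ isometryGroup F3 Q8) (u v : V8) :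
    B8 ((g : M8) *ᵥ u) ((g : M8) *ᵥ v) = B8 u v :=
  isometry_b hQ8 h u v

end CfsgLib.O8Three88
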