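import Cfsg.Agent.O8Three88.Mat

/-! Adapted bases for isometries of order three in characteristic three: blocks of size three, four and one. -/

set_option autoImplicit false
set_option linter.unusedSectionVars false

namespace CfsgLib.O8Three88

open Cfsg Cfsg.Geo CfsgLib.OrthGeo CfsgLib.Classical.Orth Matrix

/-- The kinds of blocks. -/
inductive Blk
  | three (a : F3)
  | two
  | one (b : F3)

/-- The size of a block. -/
abbrev Blk.dim : Blk → ℕ
  | .three _ => 3
  | .two => 4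
  | .one _ => 1

/-- The Gram matrix of a block. -/
def Blk.gram : (b : Blk) → Matrix (Fin b.dim) (Fin b.dim) F3
  | .three a => !![0, -a, a; -a, -a, 0; a, 0, 0]
  | .two => !![0, 0, 0, 1; 0, 0, -1, 0; 0, -1, 0, 0; 1, 0, 0, 0]
  | .one b => !![b]

/-- The action on a block. -/
def Blk.act : (b : Blk) → Matrix (Fin b.dim) (Fin b.dim) F3
  | .three _ => !![1, 0, 0; 1, 1, 0; 0, 1, 1]
  | .two => !![1, 0, 0, 0; 0, 1, 0, 0; 1, 0, 1, 0; 0, 1, 0, 1]
  | .one _ => 1

/-- The scalar of a block. -/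
def Blk.sgn : Blk → F3
  | .three a => a
  | .two => 1
  | .one b => b

/-- The size of a list of blocks. -/
@[reducible] def dims : List Blk → ℕ
  | [] => 0
  | b :: bs => b.dim + dims bs

/-- The Gram matrix of a list of blocks. -/
def gramM : (bs : List Blk) → Matrix (Fin (dims bs)) (Fin (dims bs)) F3
  | [] => 0
  | b :: bs => (Matrix.fromBlocks b.gram 0 0 (gramM bs)).submatrix finSumFinEquiv.symm finSumFinEquiv.symm

/-- The action of a list of blocks. -/
def actM : (bs : List Blk) → Matrix (Fin (dims bs)) (Fin (dims bs)) F3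
  | [] => 0
  | b :: bs => (Matrix.fromBlocks b.act 0 0 (actM bs)).submatrix finSumFinEquiv.symm finSumFinEquiv.symm

/-- The product of the scalars. -/
def sgns : List Blk → F3
  | [] => 1
  | b :: bs => b.sgn * sgns bs

lemma det_gram (b : Blk) : b.gram.det = b.sgn := by
  cases b with
  | three a => revert a; decide +kernel
  | two => decide +kernel
  | one b => simp [Blk.gram, Blk.sgn, Matrix.det_fin_one]

lemma det_gramM : ∀ bs : List Blk, (gramM bs).det = sgns bs
  | [] => Matrix.det_fin_zero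
  | b :: bs => by
    rw [gramM, Matrix.det_submatrix_equiv_self, Matrix.det_fromBlocks_zero₁₂, det_gram, det_gramM bs, sgns]

variable {X : M8}

/-- An isometry of order dividing three. -/
structure Ord3 (X : M8) : Prop where
  cube : X * X * X = 1
  gram : Xᵀ * J8 * X = J8

/-- The nilpotent part. -/
def nil (X : M8) (v : V8) : V8 := X *ᵥ v - v

lemma nil_add (u v : V8) : nil X (u + v) = nil X u + nil X v := by
  simp only [nil, Matrix.mulVec_add]; abel

lemma nil_smul (c : F3) (v : V8) : nil X (c • v) = c • nil X v := by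
  simp only [nil, Matrix.mulVec_smul, smul_sub]

lemma nil_sub (u v : V8) : nil X (u - v) = nil X u - nil X v := by
  simp only [nil, Matrix.mulVec_sub]; abel

lemma nil_zero : nil X 0 = 0 := by simp [nil]

lemma mulVec_eq_add_nil (v : V8) : X *ᵥ v = v + nil X v := by simp [nil]

lemma two_add_one : (2 : F3) + 1 = 0 := by decide

lemma nil_three (hX : Ord3 X) (v : V8) : nil X (nil X (nil X v)) = 0 := by
  have h3 : X *ᵥ (X *ᵥ (X *ᵥ v)) = v := by
    rw [Matrix.mulVec_mulVec, Matrix.mulVec_mulVec, hX.cube, Matrix.one_mulVec]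
  simp only [nil, Matrix.mulVec_sub, h3]
  funext i
  simp only [Pi.sub_apply, Pi.zero_apply]
  have h : (3 : F3) = 0 := rfl
  linear_combination ((X *ᵥ v) i - (X *ᵥ (X *ᵥ v)) i) * h

lemma B8_comm (u v : V8) : B8 u v = B8 v u := by
  simp only [B8, bform_apply]
  exact QuadraticMap.polar_comm _ _ _

lemma B8_inv (hX : Ord3 X) (u v : V8) : B8 (X *ᵥ u) (X *ᵥ v) = B8 u v := by
  rw [B8_eq, B8_eq, ← Matrix.vecMul_transpose, ← Matrix.dotProduct_mulVec, Matrix.mulVec_mulVec,
    Matrix.mulVec_mulVec, hX.gram]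

lemma B8_mul_left (hX : Ord3 X) (u v : V8) : B8 (X *ᵥ u) v = B8 u (X *ᵥ (X *ᵥ v)) := by
  have h3 : X *ᵥ (X *ᵥ (X *ᵥ v)) = v := by
    rw [Matrix.mulVec_mulVec, Matrix.mulVec_mulVec, hX.cube, Matrix.one_mulVec]
  conv_lhs => rw [← h3]
  rw [B8_inv hX]

lemma B8_nil_left (hX : Ord3 X) (u v : V8) :
    B8 (nil X u) v = B8 u (nil X (nil X v)) - B8 u (nil X v) := by
  have h : (3 : F3) = 0 := rfl
  have e : B8 (nil X u) v = B8 u (X *ᵥ (X *ᵥ v)) - B8 u v := by
    rw [nil, map_sub, LinearMap.sub_apply, B8_mul_left hX]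
  rw [e]
  simp only [nil, Matrix.mulVec_sub, map_sub]
  linear_combination (B8 u (X *ᵥ v) - B8 u v) * h

lemma B8_nil_nil_symm (hX : Ord3 X) (u v : V8) : B8 (nil X (nil X u)) v = B8 u (nil X (nil X v)) := by
  have h : (3 : F3) = 0 := rfl
  rw [B8_nil_left hX, B8_nil_left hX, B8_nil_left hX]
  simp only [nil_three hX, nil_zero, map_zero]
  linear_combination (0 : F3) * h

/-! ### Invariant subspaces -/

/-- A non-degenerate invariant subspace. -/
structure Good (X : M8) (W : Submodule F3 V8) : Prop where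
  inv : ∀ v ∈ W, X *ᵥ v ∈ W
  nd : ∀ w ∈ W, (∀ u ∈ W, B8 u w = 0) → w = 0

lemma Good.nil_mem {W : Submodule F3 V8} (hW : Good X W) {v : V8} (hv : v ∈ W) : nil X v ∈ W :=
  W.sub_mem (hW.inv v hv) hv

lemma good_top : Good X ⊤ :=
  ⟨fun _ _ => trivial, fun w _ h => (b_nondeg hQ8).2 w fun u => h u trivial⟩

/-- An adapted basis of `W` for a list of blocks. -/
def Dec (X : M8) (W : Submodule F3 V8) (bs : List Blk) : Prop :=
  ∃ C : Matrix I8 (Fin (dims bs)) F3, Cᵀ * J8 * C = gramM bs ∧ X * C = C * actM bs ∧ (∀ j, Cᵀ j ∈ W) ∧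
    ∀ v ∈ W, Cᵀ *ᵥ (J8 *ᵥ v) = 0 → v = 0

lemma gram_apply {n : Type*} (C : Matrix I8 n F3) (i j : n) : (Cᵀ * J8 * C) i j = B8 (Cᵀ i) (Cᵀ j) := by
  rw [B8_eq, Matrix.mul_assoc, Matrix.mul_apply]
  simp only [dotProduct, Matrix.transpose_apply]
  exact Finset.sum_congr rfl fun k _ => by rw [Matrix.mul_apply]; rfl

lemma mulVec_mem {n : Type*} [Fintype n] {C : Matrix I8 n F3} {W : Submodule F3 V8} (h : ∀ j, Cᵀ j ∈ W)
    (y : n → F3) : C *ᵥ y ∈ W := by
  rw [Matrix.mulVec_eq_sum]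
  refine W.sum_mem fun j _ => ?_
  rw [op_smul_eq_smul]
  exact W.smul_mem _ (h j)

/-- The part of `W` orthogonal to the columns. -/
def rest {n : Type*} [Fintype n] (W : Submodule F3 V8) (C : Matrix I8 n F3) : Submodule F3 V8 :=
  W ⊓ LinearMap.ker ((Cᵀ * J8).mulVecLin)

lemma mem_rest {n : Type*} [Fintype n] {W : Submodule F3 V8} {C : Matrix I8 n F3} {v : V8} :
    v ∈ rest W C ↔ v ∈ W ∧ Cᵀ *ᵥ (J8 *ᵥ v) = 0 := by
  simp only [rest, Submodule.mem_inf, LinearMap.mem_ker, Matrix.mulVecLin_apply, Matrix.mulVec_mulVec]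

lemma B8_col {n : Type*} (C : Matrix I8 n F3) (v : V8) (i : n) :
    (Cᵀ *ᵥ (J8 *ᵥ v)) i = B8 (Cᵀ i) v := by
  rw [B8_eq]; rfl

section Split

variable {n : Type*} [Fintype n] [DecidableEq n] {W : Submodule F3 V8} {C : Matrix I8 n F3}
  {M T : Matrix n n F3}

lemma proj_mem (hC : ∀ j, Cᵀ j ∈ W) (hM : Cᵀ * J8 * C = M) (hdet : M.det ≠ 0) {v : V8} (hv : v ∈ W) :
    v - C *ᵥ (M⁻¹ *ᵥ (Cᵀ *ᵥ (J8 *ᵥ v))) ∈ rest W C := by
  rw [mem_rest]
  refine ⟨W.sub_mem hv (mulVec_mem hC _), ?_⟩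
  have hu : IsUnit M.det := isUnit_iff_ne_zero.2 hdet
  simp only [Matrix.mulVec_sub, Matrix.mulVec_mulVec, ← Matrix.mul_assoc, hM, Matrix.mul_nonsing_inv _ hu,
    Matrix.one_mul, sub_self]

lemma good_rest (hX : Ord3 X) (hW : Good X W) (hC : ∀ j, Cᵀ j ∈ W) (hM : Cᵀ * J8 * C = M) (hdet : M.det ≠ 0)
    (hT : X * C = C * T) : Good X (rest W C) := by
  constructor
  · intro v hv
    rw [mem_rest] at hv ⊢
    refine ⟨hW.inv v hv.1, ?_⟩
    have e1 : (X * X)ᵀ * J8 = J8 * X := by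
      have h : (X * X)ᵀ * J8 * (X * X) = J8 := by
        rw [Matrix.transpose_mul]
        calc Xᵀ * Xᵀ * J8 * (X * X) = Xᵀ * (Xᵀ * J8 * X) * X := by simp only [Matrix.mul_assoc]
          _ = J8 := by rw [hX.gram, hX.gram]
      calc (X * X)ᵀ * J8 = (X * X)ᵀ * J8 * ((X * X) * X) := by rw [hX.cube, Matrix.mul_one]
        _ = (X * X)ᵀ * J8 * (X * X) * X := by simp only [Matrix.mul_assoc]
        _ = J8 * X := by rw [h]
    have e2 : Cᵀ * J8 * X = (T * T)ᵀ * (Cᵀ * J8) := by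
      rw [Matrix.mul_assoc, ← e1, ← Matrix.mul_assoc, ← Matrix.transpose_mul,
        show X * X * C = C * (T * T) by rw [Matrix.mul_assoc, hT, ← Matrix.mul_assoc, hT, Matrix.mul_assoc],
        Matrix.transpose_mul, Matrix.mul_assoc]
    rw [Matrix.mulVec_mulVec, Matrix.mulVec_mulVec, e2, ← Matrix.mulVec_mulVec, ← Matrix.mulVec_mulVec, hv.2,
      Matrix.mulVec_zero]
  · intro w hw h
    rw [mem_rest] at hw
    refine hW.nd w hw.1 fun u hu => ?_
    rw [← add_sub_cancel (C *ᵥ (M⁻¹ *ᵥ (Cᵀ *ᵥ (J8 *ᵥ u)))) u, map_add, LinearMap.add_apply, h _ (proj_mem hC hM hdet hu), add_zero, B8_eq, ← Matrix.vecMul_transpose,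
      ← Matrix.dotProduct_mulVec, hw.2, dotProduct_zero]

lemma rest_lt [Nonempty n] (hC : ∀ j, Cᵀ j ∈ W) (hM : Cᵀ * J8 * C = M) (hdet : M.det ≠ 0) : rest W C < W := by
  refine lt_of_le_of_ne inf_le_left fun he => hdet ?_
  refine Matrix.det_eq_zero_of_column_eq_zero (Classical.arbitrary n) fun i => ?_
  have hm : Cᵀ (Classical.arbitrary n) ∈ rest W C := he.symm ▸ hC _
  have := congrFun (mem_rest.1 hm).2 i
  rwa [← hM, gram_apply, ← B8_col]

end Split

/-- Adding a block. -/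
lemma Dec.cons {W : Submodule F3 V8} {b : Blk} {bs : List Blk} {C : Matrix I8 (Fin b.dim) F3}
    (hC : ∀ j, Cᵀ j ∈ W) (hM : Cᵀ * J8 * C = b.gram) (hdet : b.gram.det ≠ 0) (hT : X * C = C * b.act)
    (hr : Dec X (rest W C) bs) : Dec X W (b :: bs) := by
  obtain ⟨D, hD1, hD2, hD3, hD4⟩ := hr
  have hCD : Cᵀ * J8 * D = 0 := by
    ext i j
    have := congrFun (mem_rest.1 (hD3 j)).2 i
    rw [B8_col] at this
    rw [Matrix.mul_assoc, Matrix.mul_apply, Matrix.zero_apply]
    rw [B8_eq] at this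
    refine Eq.trans ?_ this
    simp only [dotProduct, Matrix.transpose_apply]
    exact Finset.sum_congr rfl fun k _ => by rw [Matrix.mul_apply]; rfl
  have hJ : J8ᵀ = J8 := by decide +kernel
  have hDC : Dᵀ * J8 * C = 0 := by
    have := congrArg Matrix.transpose hCD
    simpa [Matrix.transpose_mul, hJ, Matrix.mul_assoc] using this
  refine ⟨(Matrix.fromCols C D).submatrix id finSumFinEquiv.symm, ?_, ?_, ?_, ?_⟩
  · rw [show ((Matrix.fromCols C D).submatrix id finSumFinEquiv.symm)ᵀ * J8 *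
        (Matrix.fromCols C D).submatrix id finSumFinEquiv.symm =
        ((Matrix.fromCols C D)ᵀ * J8 * Matrix.fromCols C D).submatrix finSumFinEquiv.symm finSumFinEquiv.symm from rfl,
      Matrix.transpose_fromCols, Matrix.fromRows_mul, Matrix.fromRows_mul_fromCols, hM, hCD, hDC, hD1]
    rfl
  · show X * _ = _ * (Matrix.fromBlocks b.act 0 0 (actM bs)).submatrix finSumFinEquiv.symm finSumFinEquiv.symm
    rw [Matrix.submatrix_mul_equiv, show X * (Matrix.fromCols C D).submatrix id finSumFinEquiv.symm =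
      (X * Matrix.fromCols C D).submatrix id finSumFinEquiv.symm from rfl, Matrix.mul_fromCols, hT, hD2,
      Matrix.fromCols_mul_fromBlocks]
    simp
  · intro j
    rcases h : finSumFinEquiv.symm j with a | a
    · have : ((Matrix.fromCols C D).submatrix id finSumFinEquiv.symm)ᵀ j = Cᵀ a := by
        funext i; simp [h]
      exact this ▸ hC a
    · have : ((Matrix.fromCols C D).submatrix id finSumFinEquiv.symm)ᵀ j = Dᵀ a := by
        funext i; simp [h]
      exact this ▸ (mem_rest.1 (hD3 a)).1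
  · intro v hv h0
    have hc : ∀ s, B8 ((Matrix.fromCols C D)ᵀ s) v = 0 := fun s => by
      have := congrFun h0 (finSumFinEquiv s)
      rw [B8_col] at this
      refine Eq.trans ?_ this
      congr 2
      funext i; simp
    have hCv : Cᵀ *ᵥ (J8 *ᵥ v) = 0 := funext fun a => by
      rw [B8_col]; exact hc (.inl a)
    exact hD4 v (mem_rest.2 ⟨hv, hCv⟩) (funext fun a => by rw [B8_col]; exact hc (.inr a))

lemma Dec.bot (X : M8) : Dec X ⊥ [] := by
  refine ⟨0, ?_, ?_, fun j => j.elim0, fun v hv _ => (Submodule.mem_bot _).1 hv⟩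
  · ext i; exact i.elim0
  · ext i j; exact j.elim0

end CfsgLib.O8Three88
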