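import Cfsg.Agent.O8Three88.Classes
import Cfsg.Agent.S1265

/-! The seven orbits of an extension of `PΩ⁺₈(3)` by the symmetric group of degree three on the subgroups of
order three. -/

set_option autoImplicit false
set_option linter.unusedSectionVars false

namespace CfsgLib.O8Three88

open Cfsg Cfsg.Geo CfsgLib.AutOrth CfsgLib.AutOrth.Plus CfsgLib.AutOrth.Triality

/-- The elements conjugating or inverting `a` under conjugation. -/
def normSet (a : Equiv.Perm (Fin 4)) : Finset (Equiv.Perm (Fin 4)) :=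
  Finset.univ.filter fun b => b * a * b⁻¹ = a ∨ b * a * b⁻¹ = a⁻¹

lemma card_normSet : ∀ a : Equiv.Perm (Fin 4), a * a * a = 1 → a ≠ 1 → (normSet a).card = 6 := by
  decide +kernel

lemma threeCycles_conj : ∀ a b : Equiv.Perm (Fin 4), a * a * a = 1 → a ≠ 1 → b * b * b = 1 → b ≠ 1 →
    ∃ c, c * a * c⁻¹ = b := by
  decide +kernel

lemma eq_normSet {H : Subgroup (Equiv.Perm (Fin 4))} (hH : Nat.card H = 6) :
    ∃ a, a * a * a = 1 ∧ a ≠ 1 ∧ ∀ b, b ∈ H ↔ b ∈ normSet a := by
  have : Fact (Nat.Prime 3) := ⟨Nat.prime_three⟩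
  obtain ⟨⟨a, ha⟩, ho⟩ := exists_prime_orderOf_dvd_card' (G := H) 3 (by rw [hH]; norm_num)
  have ha3 : a * a * a = 1 := by
    have := pow_orderOf_eq_one (⟨a, ha⟩ : H)
    rw [ho] at this
    simpa [pow_succ] using congrArg Subtype.val this
  have ha1 : a ≠ 1 := fun h => by
    have : (⟨a, ha⟩ : H) = 1 := Subtype.ext h
    rw [this, orderOf_one] at ho
    exact absurd ho (by norm_num)
  set K := Subgroup.zpowers (⟨a, ha⟩ : H) with hK
  have hidx : K.index = 2 := by
    have h := K.card_mul_index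
    rw [hH, hK, Nat.card_zpowers, ho] at h
    rw [hK]; omega
  have hn : K.Normal := Subgroup.normal_of_index_eq_two hidx
  have hsub : ∀ b ∈ H, b ∈ normSet a := by
    intro b hb
    have hm := hn.conj_mem _ (Subgroup.mem_zpowers _) (⟨b, hb⟩ : H)
    obtain ⟨k, hk⟩ := Subgroup.mem_zpowers_iff.1 hm
    rw [← zpow_mod_orderOf, ho] at hk
    simp only [normSet, Finset.mem_filter, Finset.mem_univ, true_and]
    rcases (show k % (3 : ℕ) = 0 ∨ k % (3 : ℕ) = 1 ∨ k % (3 : ℕ) = 2 by omega) with e | e | e <;> rw [e] at hk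
    · rw [zpow_zero] at hk
      have := congrArg Subtype.val hk
      simp only [Subgroup.coe_mul, InvMemClass.coe_inv, OneMemClass.coe_one] at this
      exact absurd (conj_eq_one_iff.1 this.symm) ha1
    · rw [zpow_one] at hk
      exact Or.inl (congrArg Subtype.val hk).symm
    · refine Or.inr ?_
      rw [show (2 : ℤ) = ((2 : ℕ) : ℤ) from rfl, zpow_natCast, pow_two] at hk
      have := congrArg Subtype.val hk
      simp only [Subgroup.coe_mul, InvMemClass.coe_inv] at this
      rw [← this]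
      exact eq_inv_of_mul_eq_one_left ha3
  refine ⟨a, ha3, ha1, fun b => ⟨hsub b, fun hb => ?_⟩⟩
  classical
  have hcard : (Finset.univ.filter fun b => b ∈ H).card = 6 := by
    rw [← Fintype.card_subtype, ← Nat.card_eq_fintype_card]; exact hH
  have heq := Finset.eq_of_subset_of_card_le (s := Finset.univ.filter fun b => b ∈ H) (t := normSet a)
    (fun b hb => hsub b (Finset.mem_filter.1 hb).2) (by rw [hcard, card_normSet a ha3 ha1])
  rw [← heq] at hb
  exact (Finset.mem_filter.1 hb).2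

lemma sixes_conj (H K : Subgroup (Equiv.Perm (Fin 4))) (hH : Nat.card H = 6) (hK : Nat.card K = 6) :
    ∃ c, ∀ b, b ∈ H ↔ c * b * c⁻¹ ∈ K := by
  obtain ⟨a, a3, a1, hA⟩ := eq_normSet hH
  obtain ⟨a', a3', a1', hA'⟩ := eq_normSet hK
  obtain ⟨c, rfl⟩ := threeCycles_conj a a' a3 a1 a3' a1'
  refine ⟨c, fun b => ?_⟩
  rw [hA, hA']
  simp only [normSet, Finset.mem_filter, Finset.mem_univ, true_and]
  rw [show c * b * c⁻¹ * (c * a * c⁻¹) * (c * b * c⁻¹)⁻¹ = c * (b * a * b⁻¹) * c⁻¹ by group,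
    show (c * a * c⁻¹)⁻¹ = c * a⁻¹ * c⁻¹ by group, mul_left_inj, mul_right_inj, mul_left_inj, mul_right_inj]

theorem out_equiv_perm : Nonempty (Out P8 ≃* Equiv.Perm (Fin 4)) := by
  have hsub : Subsingleton (RingAut F3) :=
    ⟨fun a b => RingEquiv.ext fun x => congrFun (congrArg (fun f : F3 →+* F3 => (f : F3 → F3))
      (Subsingleton.elim (a : F3 →+* F3) (b : F3 →+* F3))) x⟩
  obtain ⟨e⟩ := OutFour.out_four_odd (F := F3) (by decide)
  exact ⟨e.trans (MulEquiv.ofBijective (MonoidHom.fst (Equiv.Perm (Fin 4)) (RingAut F3))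
    ⟨fun x y h => Prod.ext h (Subsingleton.elim _ _), fun x => ⟨(x, 1), rfl⟩⟩)⟩

/-- The group generated by triality and the graph automorphism, in `Out`. -/
noncomputable def H0 : Subgroup (Out P8) := Subgroup.closure {OutFour.tt, OutFour.cc kS}

lemma card_H0 : Nat.card H0 = 6 := OutFour.card_six OutFour.datum

section extension

variable {G : Type*} [Group G] (L : Subgroup G) [L.Normal] (e : L ≃* P8)

/-- The action on the simple group. -/
noncomputable def actP : G →* MulAut P8 := (MulAut.congr e).toMonoidHom.comp MulAut.conjNormal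

lemma actP_apply (g : G) (x : L) : actP L e g (e x) = e (MulAut.conjNormal g x) := by
  simp [actP]

lemma actP_mem (x : L) : actP L e x = MulAut.conj (e x) := by
  refine MulEquiv.ext fun p => ?_
  obtain ⟨y, rfl⟩ := e.surjective p
  rw [actP_apply, MulAut.conj_apply, ← map_inv, ← map_mul, ← map_mul]
  exact congrArg e (Subtype.ext (by simp))

lemma actP_injective (hL : L = Cfsg.generalizedFittingSubgroup G) [Finite G] :
    Function.Injective (actP L e) := by
  rw [injective_iff_map_eq_one]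
  intro g hg
  have hc : g ∈ L := by
    have hmem : g ∈ Subgroup.centralizer (Cfsg.generalizedFittingSubgroup G : Set G) := by
      rw [← hL, Subgroup.mem_centralizer_iff]
      intro x hx
      have := actP_apply L e g ⟨x, hx⟩
      rw [hg, MulAut.one_apply] at this
      have h2 := congrArg Subtype.val (e.injective this)
      rw [MulAut.conjNormal_apply] at h2
      exact eq_mul_inv_iff_mul_eq.1 h2
    exact hL ▸ Cfsg.Agent.S1265.result hmem
  have h1 : MulAut.conj (e ⟨g, hc⟩) = 1 := (actP_mem L e ⟨g, hc⟩).symm.trans hg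
  have h2 : e ⟨g, hc⟩ = 1 := CfsgLib.AutOrth.Triality.conj_injective (h1.trans (map_one _).symm)
  exact congrArg Subtype.val ((map_eq_one_iff e e.injective).1 h2)

/-- The action on the outer automorphisms. -/
noncomputable def outP : G →* Out P8 := (QuotientGroup.mk' _).comp (actP L e)

lemma outP_ker (hL : L = Cfsg.generalizedFittingSubgroup G) [Finite G] : (outP L e).ker = L := by
  ext g
  rw [MonoidHom.mem_ker]
  refine ⟨fun h => ?_, fun h => ?_⟩
  · obtain ⟨p, hp⟩ := (QuotientGroup.eq_one_iff _).1 h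
    obtain ⟨x, rfl⟩ := e.surjective p
    rw [← actP_mem] at hp
    exact actP_injective L e hL hp ▸ x.2
  · exact (QuotientGroup.eq_one_iff _).2 ⟨e ⟨g, h⟩, (actP_mem L e ⟨g, h⟩).symm⟩

lemma actP_trans (α : MulAut P8) (g : G) : actP L (e.trans α) g = α * actP L e g * α⁻¹ := by
  refine MulEquiv.ext fun p => ?_
  obtain ⟨y, rfl⟩ := (e.trans α).surjective p
  rw [actP_apply]
  simp [actP_apply]

theorem exists_iso_range (e : L ≃* P8) (hL : L = Cfsg.generalizedFittingSubgroup G) [Finite G]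
    (hq : Nat.card (G ⧸ L) = 6) : ∃ e' : L ≃* P8, (outP L e').range = H0 := by
  obtain ⟨f⟩ := out_equiv_perm
  have h6 : Nat.card (outP L e).range = 6 := by
    rw [← Subgroup.index_ker, outP_ker L e hL]; exact hq
  have hm : ∀ H : Subgroup (Out P8), Nat.card (H.map f.toMonoidHom) = Nat.card H := fun H =>
    (Nat.card_congr (H.equivMapOfInjective _ f.injective).toEquiv).symm
  obtain ⟨c, hc⟩ := sixes_conj ((outP L e).range.map f.toMonoidHom) (H0.map f.toMonoidHom)
    (by rw [hm, h6]) (by rw [hm, card_H0])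
  obtain ⟨c', rfl⟩ := f.surjective c
  obtain ⟨α, rfl⟩ := QuotientGroup.mk_surjective c'
  refine ⟨e.trans α, ?_⟩
  have hmem : ∀ b, b ∈ (outP L e).range ↔ QuotientGroup.mk α * b * (QuotientGroup.mk α)⁻¹ ∈ H0 := fun b => by
    have h := hc (f b)
    rw [← map_inv, ← map_mul, ← map_mul] at h
    exact ((Subgroup.mem_map_iff_mem (f := f.toMonoidHom) f.injective).symm.trans h).trans
      (Subgroup.mem_map_iff_mem (f := f.toMonoidHom) f.injective)
  have hout : ∀ g, outP L (e.trans α) g = QuotientGroup.mk α * outP L e g * (QuotientGroup.mk α)⁻¹ := fun g => by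
    show QuotientGroup.mk (actP L (e.trans α) g) = _
    rw [actP_trans]
    rfl
  ext z
  constructor
  · rintro ⟨g, rfl⟩
    rw [hout, ← hmem]
    exact ⟨g, rfl⟩
  · intro hz
    obtain ⟨g, hg⟩ := (hmem ((QuotientGroup.mk α)⁻¹ * z * QuotientGroup.mk α)).2 (by
      convert hz using 1; group)
    exact ⟨g, by rw [hout, hg]; group⟩

/-- The orbit of a class. -/
def orb : Fin 13 → Fin 7 := ![0, 1, 1, 2, 2, 1, 3, 4, 2, 3, 3, 5, 6]

/-- A class in each orbit. -/
def orbRep : Fin 7 → Fin 13 := ![0, 1, 3, 6, 7, 11, 12]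

lemma orb_rep : ∀ i, orb (orbRep i) = i := by decide +kernel

lemma orb_piG : ∀ q, orb (piG q) = orb q := by decide +kernel

lemma orb_piT : ∀ q, orb (piT q) = orb q := by decide +kernel

lemma orb_reach : ∀ q, q = orbRep (orb q) ∨ q = piG (orbRep (orb q)) ∨ q = piT (orbRep (orb q)) ∨
    q = piG (piT (orbRep (orb q))) ∨ q = piT (piG (orbRep (orb q))) := by
  decide +kernel

lemma InClass.map {β : MulAut P8} {π : Fin 13 → Fin 13} (hβ : ∀ q, InClass (β (yP q)) (π q)) {y : P8}
    {q : Fin 13} (h : InClass y q) : InClass (β y) (π q) := by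
  obtain ⟨g, rfl⟩ := h
  obtain ⟨a, ha⟩ := hβ q
  exact ⟨β g * a, by rw [map_mul, map_mul, map_inv, ha]; group⟩

/-- The automorphisms respecting the orbits. -/
def orbMonoid : Submonoid (MulAut P8) where
  carrier := {β | ∀ q, ∃ q', orb q' = orb q ∧ InClass (β (yP q)) q'}
  one_mem' q := ⟨q, rfl, 1, by simp⟩
  mul_mem' {β γ} hβ hγ q := by
    obtain ⟨q', ho, g, hg⟩ := hγ q
    obtain ⟨q'', ho', a, ha⟩ := hβ q'
    exact ⟨q'', ho'.trans ho, β g * a, by rw [MulAut.mul_apply, hg, map_mul, map_mul, map_inv, ha]; group⟩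

/-- The automorphisms respecting the orbits, as a subgroup. -/
noncomputable def orbGroup : Subgroup (MulAut P8) where
  toSubmonoid := orbMonoid
  inv_mem' {β} hβ := by
    have : Finite (MulAut P8) := Finite.of_injective (fun β => (β : P8 → P8)) DFunLike.coe_injective
    have h := pow_mem (show β ∈ orbMonoid from hβ) (orderOf β - 1)
    rwa [show β⁻¹ = β ^ (orderOf β - 1) from inv_eq_of_mul_eq_one_right (by
      rw [← pow_succ', Nat.sub_add_cancel (orderOf_pos β), pow_orderOf_eq_one])]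

lemma orbGroup_spec {β : MulAut P8} (h : β ∈ orbGroup) (q : Fin 13) :
    ∃ q', orb q' = orb q ∧ InClass (β (yP q)) q' := h q

lemma conj_mem_orbGroup (p : P8) : MulAut.conj p ∈ orbGroup := fun q => ⟨q, rfl, p, rfl⟩

lemma H0_le : H0 ≤ orbGroup.map (QuotientGroup.mk' (Inn P8)) := by
  rw [H0, Subgroup.closure_le]
  rintro z (rfl | rfl)
  · exact ⟨tau, fun q => ⟨piT q, orb_piT q, tau_class q⟩, rfl⟩
  · exact ⟨gam, fun q => ⟨piG q, orb_piG q, gam_spec q⟩, rfl⟩

lemma actP_orb (hr : (outP L e).range = H0) (g : G) : actP L e g ∈ orbGroup := by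
  have hm : outP L e g ∈ H0 := by rw [← hr]; exact ⟨g, rfl⟩
  obtain ⟨β, hβ, he⟩ := H0_le hm
  obtain ⟨p, hp⟩ := QuotientGroup.eq.1 he
  have : actP L e g = β * MulAut.conj p := by rw [hp, mul_inv_cancel_left]
  exact this ▸ mul_mem hβ (conj_mem_orbGroup p)

lemma mem_range_act (hr : (outP L e).range = H0) {β : MulAut P8} (hβ : QuotientGroup.mk β ∈ H0) :
    ∃ g, actP L e g = β := by
  rw [← hr] at hβ
  obtain ⟨g, hg⟩ := hβ
  obtain ⟨p, hp⟩ := QuotientGroup.eq.1 (show (QuotientGroup.mk (actP L e g) : Out P8) = QuotientGroup.mk β from hg)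
  obtain ⟨x, rfl⟩ := e.surjective p
  exact ⟨g * x, by rw [map_mul, actP_mem, hp, mul_inv_cancel_left]⟩

lemma exists_move (hr : (outP L e).range = H0) (y : P8) (h3 : y ^ 3 = 1) (hne : y ≠ 1) :
    ∃ i g, actP L e g (yP (orbRep i)) = y := by
  obtain ⟨q, hq⟩ := exists_inClass y h3 hne
  have hT : ∃ g, actP L e g = tau := mem_range_act L e hr (Subgroup.subset_closure (Or.inl rfl))
  have hG : ∃ g, actP L e g = gam := mem_range_act L e hr (Subgroup.subset_closure (Or.inr rfl))
  obtain ⟨gt, hgt⟩ := hT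
  obtain ⟨gg, hgg⟩ := hG
  suffices h : ∀ q', q' = q → InClass (actP L e (1 : G) (yP (orbRep (orb q)))) q' ∨
      InClass (actP L e gg (yP (orbRep (orb q)))) q' ∨ InClass (actP L e gt (yP (orbRep (orb q)))) q' ∨
      InClass (actP L e (gg * gt) (yP (orbRep (orb q)))) q' ∨
      InClass (actP L e (gt * gg) (yP (orbRep (orb q)))) q' by
    have fin : ∀ g, InClass (actP L e g (yP (orbRep (orb q)))) q → ∃ g', actP L e g' (yP (orbRep (orb q))) = y := by
      intro g hg
      obtain ⟨a, ha⟩ := hg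
      obtain ⟨b, hb⟩ := hq
      obtain ⟨x, hx⟩ := e.surjective (b * a⁻¹)
      refine ⟨x * g, ?_⟩
      rw [map_mul, MulAut.mul_apply, ha, actP_mem, hx, MulAut.conj_apply, hb]
      group
    refine ⟨orb q, ?_⟩
    rcases h q rfl with h | h | h | h | h <;> exact fin _ h
  rintro q' rfl
  set r := orbRep (orb q') with hr'
  rcases orb_reach q' with h | h | h | h | h <;> rw [← hr'] at h
  · exact Or.inl ⟨1, by simp [← h]⟩
  · exact Or.inr (Or.inl (by rw [hgg, h]; exact gam_spec r))
  · exact Or.inr (Or.inr (Or.inl (by rw [hgt, h]; exact tau_class r)))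
  · refine Or.inr (Or.inr (Or.inr (Or.inl ?_)))
    rw [map_mul, hgg, hgt, MulAut.mul_apply, h]
    exact InClass.map gam_spec (tau_class r)
  · refine Or.inr (Or.inr (Or.inr (Or.inr ?_)))
    rw [map_mul, hgg, hgt, MulAut.mul_apply, h]
    exact InClass.map tau_class (gam_spec r)

/-- The subgroup of an orbit. -/
noncomputable def orbSub (i : Fin 7) : Subgroup G :=
  (Ysub (orbRep i)).map (L.subtype.comp e.symm.toMonoidHom)

lemma map_inj88 : Function.Injective (L.subtype.comp e.symm.toMonoidHom) :=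
  L.subtype_injective.comp e.symm.injective

lemma orbSub_le (i : Fin 7) : orbSub L e i ≤ L := by
  rintro _ ⟨p, -, rfl⟩
  exact (e.symm p).2

lemma card_orbSub (i : Fin 7) : Nat.card (orbSub L e i) = 3 := by
  rw [orbSub, ← Nat.card_congr ((Ysub (orbRep i)).equivMapOfInjective _ (map_inj88 L e)).toEquiv, card_Ysub]

lemma conj_incl (g : G) (p : P8) :
    g * ((e.symm p : L) : G) * g⁻¹ = ((e.symm (actP L e g p) : L) : G) := by
  obtain ⟨x, rfl⟩ := e.surjective p
  rw [actP_apply, e.symm_apply_apply, e.symm_apply_apply, MulAut.conjNormal_apply]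

theorem orbSub_inj (hr : (outP L e).range = H0) {i j : Fin 7} {g : G}
    (h : (orbSub L e i).map (MulAut.conj g).toMonoidHom = orbSub L e j) : i = j := by
  have hm : g * ((e.symm (yP (orbRep i)) : L) : G) * g⁻¹ ∈ orbSub L e j :=
    h ▸ Subgroup.mem_map_of_mem _ (Subgroup.mem_map_of_mem _ (Subgroup.mem_zpowers _))
  rw [conj_incl] at hm
  have hm' : actP L e g (yP (orbRep i)) ∈ Ysub (orbRep j) := by
    rw [orbSub] at hm
    exact (Subgroup.mem_map_iff_mem (map_inj88 L e)).1 hm
  obtain ⟨q', ho, a, ha⟩ := orbGroup_spec (actP_orb L e hr g) (orbRep i)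
  have hne : yP (orbRep i) ≠ 1 := yP_ne _
  rw [orb_rep] at ho
  rcases mem_Ysub hm' with h1 | h1 | h1
  · exact absurd ((map_eq_one_iff _ (actP L e g).injective).1 h1) hne
  · rw [← ho, Rel.eq ⟨a, Or.inl (ha.symm.trans h1)⟩, orb_rep]
  · rw [← ho, Rel.eq ⟨a, Or.inr (ha.symm.trans h1)⟩, orb_rep]

theorem exists_orbSub (hr : (outP L e).range = H0) (X : Subgroup G) (hle : X ≤ L) (hX : Nat.card X = 3) :
    ∃ i, ∃ g : G, X.map (MulAut.conj g).toMonoidHom = orbSub L e i := by
  have : Fact (Nat.Prime 3) := ⟨Nat.prime_three⟩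
  have : Finite X := Nat.finite_of_card_ne_zero (by omega)
  have : Nontrivial X := Finite.one_lt_card_iff_nontrivial.1 (by omega)
  obtain ⟨⟨y, hy⟩, hne⟩ := exists_ne (1 : X)
  have h3 : y ^ 3 = 1 := by
    have := pow_card_eq_one' (G := X) (x := ⟨y, hy⟩)
    rw [hX] at this
    exact congrArg Subtype.val this
  obtain ⟨i, g, hg⟩ := exists_move L e hr (e ⟨y, hle hy⟩)
    (by rw [← map_pow, show (⟨y, hle hy⟩ : L) ^ 3 = 1 from Subtype.ext h3, map_one])
    (fun h => hne (Subtype.ext (congrArg Subtype.val ((map_eq_one_iff e e.injective).1 h) :)))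
  refine ⟨i, g⁻¹, ?_⟩
  have hz : X = Subgroup.zpowers y := by
    have := zpowers_eq_top_of_prime_card hX hne
    conv_lhs => rw [← X.range_subtype, MonoidHom.range_eq_map, ← this, MonoidHom.map_zpowers]
    rfl
  rw [hz, MonoidHom.map_zpowers, orbSub, Ysub, MonoidHom.map_zpowers]
  congr 1
  simp only [MulEquiv.coe_toMonoidHom, MulAut.conj_apply, MonoidHom.comp_apply, Subgroup.subtype_apply, inv_inv]
  have h := conj_incl L e g (yP (orbRep i))
  rw [hg, e.symm_apply_apply] at h
  rw [← show g * ((e.symm (yP (orbRep i)) : L) : G) * g⁻¹ = y from h]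
  group

end extension

end CfsgLib.O8Three88
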